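import Cfsg.Agent.M24.Classes
import Cfsg.Prelude.Def_Spor_Mathieu

/-!
M22 and its outer automorphism inside M24.
-/

set_option autoImplicit false

namespace Cfsg.Agent.M24

open Cfsg Cfsg.Agent.Golay
open scoped Pointwise

theorem mem_M22 {g : Equiv.Perm GolayPt} :
    g ∈ Spor.M22 ↔ g ∈ M24 ∧ g none = none ∧ g (some 0) = some 0 := by
  rw [Spor.M22, Spor.M23, Subgroup.mem_inf, Subgroup.mem_inf, and_assoc]
  exact Iff.rfl

theorem pair_stab_cases {g : Equiv.Perm GolayPt}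
    (h : g • ({none, some 0} : Finset GolayPt) = {none, some 0}) :
    (g none = none ∧ g (some 0) = some 0) ∨ (g none = some 0 ∧ g (some 0) = none) := by
  have h1 : g none ∈ ({none, some 0} : Finset GolayPt) :=
    h ▸ Finset.smul_mem_smul_finset (by simp)
  have h2 : g (some 0) ∈ ({none, some 0} : Finset GolayPt) :=
    h ▸ Finset.smul_mem_smul_finset (by simp)
  simp only [Finset.mem_insert, Finset.mem_singleton] at h1 h2
  have hne : g none ≠ g (some 0) := g.injective.ne (by simp)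
  rcases h1 with e | e <;> rcases h2 with e' | e'
  · exact absurd (e.trans e'.symm) hne
  · exact Or.inl ⟨e, e'⟩
  · exact Or.inr ⟨e, e'⟩
  · exact absurd (e.trans e'.symm) hne

theorem relIndex_M22 {g : Equiv.Perm GolayPt} (hg : g ∈ M24) (h₁ : g none = some 0)
    (h₂ : g (some 0) = none) :
    Spor.M22.relIndex (M24 ⊓ MulAction.stabilizer (Equiv.Perm GolayPt)
      ({none, some 0} : Finset GolayPt)) = 2 := by
  have hmem : g ∈ M24 ⊓ MulAction.stabilizer (Equiv.Perm GolayPt)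
      ({none, some 0} : Finset GolayPt) := by
    refine Subgroup.mem_inf.mpr ⟨hg, MulAction.mem_stabilizer_iff.mpr ?_⟩
    rw [Finset.smul_finset_insert, Finset.smul_finset_singleton, Equiv.Perm.smul_def,
      Equiv.Perm.smul_def, h₁, h₂, Finset.pair_comm]
  rw [Subgroup.relIndex, Subgroup.index_eq_two_iff]
  refine ⟨⟨g, hmem⟩, fun b => ?_⟩
  have hbM : (b : Equiv.Perm GolayPt) ∈ M24 := b.2.1
  simp only [Subgroup.mem_subgroupOf, Subgroup.coe_mul, mem_M22, Equiv.Perm.mul_apply, h₁, h₂,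
    hbM, mul_mem hbM hg, true_and]
  rcases pair_stab_cases (MulAction.mem_stabilizer_iff.mp b.2.2) with ⟨e, e'⟩ | ⟨e, e'⟩
  · refine Or.inr ⟨⟨e, e'⟩, ?_⟩
    simp [e']
  · refine Or.inl ⟨⟨e', e⟩, ?_⟩
    simp [e]

theorem conj_M22 {g x : Equiv.Perm GolayPt} (hg : g ∈ M24) (h₁ : g none = some 0)
    (h₂ : g (some 0) = none) (hx : x ∈ Spor.M22) : g * x * g⁻¹ ∈ Spor.M22 := by
  obtain ⟨hxm, x1, x2⟩ := mem_M22.mp hx
  exact mem_M22.mpr ⟨mul_mem (mul_mem hg hxm) (inv_mem hg), conj_apply_eq h₂ h₂ x2,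
    conj_apply_eq h₁ h₁ x1⟩

/-- No element of M24 is a transposition. -/
theorem not_transposition {z : Equiv.Perm GolayPt} (hz : z ∈ M24) {a b : GolayPt} (hab : a ≠ b)
    (h : z a = b) (hfix : ∀ p, p ≠ a → p ≠ b → z p = p) : False := by
  obtain ⟨c, hc⟩ := exists_outside [a, b] (by simp)
  obtain ⟨d, hd⟩ := exists_outside [a, b, c] (by simp)
  obtain ⟨e, he⟩ := exists_outside [a, b, c, d] (by simp)
  simp only [List.mem_cons, List.not_mem_nil, or_false, not_or] at hc hd he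
  obtain ⟨k, hk, k0, k1, -, -, -⟩ := exists_to_base_five' a b c d e (by
    simp [hab, Ne.symm hc.1, Ne.symm hc.2, Ne.symm hd.1, Ne.symm hd.2.1, Ne.symm hd.2.2,
      Ne.symm he.1, Ne.symm he.2.1, Ne.symm he.2.2.1, Ne.symm he.2.2.2])
  have hN : NormSwap (k * z * k⁻¹) := by
    refine ⟨conj_apply_eq k0 k1 h, fun p p0 p1 => ?_⟩
    have e : k (k⁻¹ p) = p := k.apply_symm_apply _
    refine conj_apply_eq e e (hfix _ (fun he => p0 ?_) fun he => p1 ?_)
    · rw [← k0, ← he, e]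
    · rw [← k1, ← he, e]
  obtain ⟨Q, hQ, -⟩ := (scan_spec tests_swap).2.1 _ (mul_mem (mul_mem hk hz) (inv_mem hk)) hN
  rw [no_swap] at hQ
  exact absurd hQ List.not_mem_nil

theorem outer_M22 {g : Equiv.Perm GolayPt} (hg : g ∈ M24) (h₁ : g none = some 0)
    (h₂ : g (some 0) = none) :
    ¬ ∃ h ∈ Spor.M22, ∀ x ∈ Spor.M22, g * x * g⁻¹ = h * x * h⁻¹ := by
  rintro ⟨h, hh, he⟩
  obtain ⟨hhm, h1, h2⟩ := mem_M22.mp hh
  set z := h⁻¹ * g with hzdef
  have hzm : z ∈ M24 := mul_mem (inv_mem hhm) hg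
  have z1 : z none = some 0 := by
    rw [hzdef, Equiv.Perm.mul_apply, h₁, Equiv.Perm.inv_eq_iff_eq, h2]
  have z2 : z (some 0) = none := by
    rw [hzdef, Equiv.Perm.mul_apply, h₂, Equiv.Perm.inv_eq_iff_eq, h1]
  have hcomm : ∀ x ∈ Spor.M22, ∀ p, x (z p) = z (x p) := fun x hx p => by
    have : x * z = z * x := by
      rw [hzdef, show h⁻¹ * g * x = h⁻¹ * (g * x * g⁻¹) * g by group, he x hx]
      group
    rw [← Equiv.Perm.mul_apply, this, Equiv.Perm.mul_apply]
  refine not_transposition hzm (a := none) (b := some 0) (by simp) z1 fun p p0 p1 => ?_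
  by_contra hne
  have za : z p ≠ none := fun e => p1 (z.injective (e.trans z2.symm))
  have zb : z p ≠ some 0 := fun e => p0 (z.injective (e.trans z1.symm))
  obtain ⟨q, hq⟩ := exists_outside [none, some 0, p, z p] (by simp)
  simp only [List.mem_cons, List.not_mem_nil, or_false, not_or] at hq
  obtain ⟨x, hxm, hx, hxq⟩ := exists_move_fixing (k := 3) (by norm_num)
    ⟨![none, some 0, p], by
      intro i j e
      fin_cases i <;> fin_cases j <;> simp [Ne.symm p0, Ne.symm p1, p0, p1] at e ⊢⟩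
    (a := z p) (b := q) (fun i => by
      fin_cases i
      exacts [Ne.symm za, Ne.symm zb, Ne.symm hne])
    (fun i => by
      fin_cases i
      exacts [Ne.symm hq.1, Ne.symm hq.2.1, Ne.symm hq.2.2.1])
  have := hcomm x (mem_M22.mpr ⟨hxm, hx 0, hx 1⟩) p
  rw [hxq, show x p = p from hx 2] at this
  exact hq.2.2.2 this

end Cfsg.Agent.M24
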