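import Cfsg.Agent.M24.TwistCard
import Cfsg.Agent.M24.BlockData
import Mathlib.Data.Fin.VecNotation

/-!
Certified counts of twisted commutation in M24 and M22, by kernel computation.
-/

set_option autoImplicit false

namespace Cfsg.Agent.M24.BlockData

theorem elem5 : elemCheck [] g5 5 = true := by decide +kernel

theorem tw5_1 : twCheck [] g5 1 60 rel5_1 = true := by decide +kernel

theorem tw5_2 : twCheck [] g5 2 60 rel5_2 = true := by decide +kernel

theorem tw5_3 : twCheck [] g5 3 60 rel5_3 = true := by decide +kernel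

theorem tw5_4 : twCheck [] g5 4 60 rel5_4 = true := by decide +kernel

theorem tw5 : ∀ t : Fin 4, twCheck [] g5 (t + 1)
    ((![60, 60, 60, 60] : Fin 4 → ℕ) t) (![rel5_1, rel5_2, rel5_3, rel5_4] t) = true
  | ⟨0, _⟩ => tw5_1
  | ⟨1, _⟩ => tw5_2
  | ⟨2, _⟩ => tw5_3
  | ⟨3, _⟩ => tw5_4

theorem elem7 : elemCheck [] g7 7 = true := by decide +kernel

theorem tw7_1 : twCheck [] g7 1 42 rel7_1 = true := by decide +kernel

theorem tw7_2 : twCheck [] g7 2 42 rel7_2 = true := by decide +kernel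

theorem tw7_3 : twCheck [] g7 3 0 rel7_3 = true := by decide +kernel

theorem tw7_4 : twCheck [] g7 4 42 rel7_4 = true := by decide +kernel

theorem tw7_5 : twCheck [] g7 5 0 rel7_5 = true := by decide +kernel

theorem tw7_6 : twCheck [] g7 6 0 rel7_6 = true := by decide +kernel

theorem tw7 : ∀ t : Fin 6, twCheck [] g7 (t + 1)
    ((![42, 42, 0, 42, 0, 0] : Fin 6 → ℕ) t) (![rel7_1, rel7_2, rel7_3, rel7_4, rel7_5, rel7_6] t) = true
  | ⟨0, _⟩ => tw7_1
  | ⟨1, _⟩ => tw7_2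
  | ⟨2, _⟩ => tw7_3
  | ⟨3, _⟩ => tw7_4
  | ⟨4, _⟩ => tw7_5
  | ⟨5, _⟩ => tw7_6

theorem elem11 : elemCheck [] g11 11 = true := by decide +kernel

theorem tw11_1 : twCheck [] g11 1 11 rel11_1 = true := by decide +kernel

theorem tw11_2 : twCheck [] g11 2 11 rel11_2 = true := by decide +kernel

theorem tw11_3 : twCheck [] g11 3 11 rel11_3 = true := by decide +kernel

theorem tw11_4 : twCheck [] g11 4 11 rel11_4 = true := by decide +kernel

theorem tw11_5 : twCheck [] g11 5 11 rel11_5 = true := by decide +kernel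

theorem tw11_6 : twCheck [] g11 6 11 rel11_6 = true := by decide +kernel

theorem tw11_7 : twCheck [] g11 7 11 rel11_7 = true := by decide +kernel

theorem tw11_8 : twCheck [] g11 8 11 rel11_8 = true := by decide +kernel

theorem tw11_9 : twCheck [] g11 9 11 rel11_9 = true := by decide +kernel

theorem tw11_10 : twCheck [] g11 10 11 rel11_10 = true := by decide +kernel

theorem tw11 : ∀ t : Fin 10, twCheck [] g11 (t + 1)
    ((![11, 11, 11, 11, 11, 11, 11, 11, 11, 11] : Fin 10 → ℕ) t) (![rel11_1, rel11_2, rel11_3, rel11_4, rel11_5, rel11_6, rel11_7, rel11_8, rel11_9, rel11_10] t) = true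
  | ⟨0, _⟩ => tw11_1
  | ⟨1, _⟩ => tw11_2
  | ⟨2, _⟩ => tw11_3
  | ⟨3, _⟩ => tw11_4
  | ⟨4, _⟩ => tw11_5
  | ⟨5, _⟩ => tw11_6
  | ⟨6, _⟩ => tw11_7
  | ⟨7, _⟩ => tw11_8
  | ⟨8, _⟩ => tw11_9
  | ⟨9, _⟩ => tw11_10

end Cfsg.Agent.M24.BlockData
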