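import Cfsg.Agent.M24.TwistCard
import Cfsg.Agent.M24.BlockData
import Mathlib.Data.Fin.VecNotation

/-!
Certified counts of twisted commutation in M24 and M22, by kernel computation.
-/

set_option autoImplicit false

namespace Cfsg.Agent.M24.BlockData

theorem elem23 : elemCheck [] g23 23 = true := by decide +kernel

theorem tw23_1 : twCheck [] g23 1 23 rel23_1 = true := by decide +kernel

theorem tw23_2 : twCheck [] g23 2 23 rel23_2 = true := by decide +kernel

theorem tw23_3 : twCheck [] g23 3 23 rel23_3 = true := by decide +kernel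

theorem tw23_4 : twCheck [] g23 4 23 rel23_4 = true := by decide +kernel

theorem tw23_5 : twCheck [] g23 5 0 rel23_5 = true := by decide +kernel

theorem tw23_6 : twCheck [] g23 6 23 rel23_6 = true := by decide +kernel

theorem tw23_7 : twCheck [] g23 7 0 rel23_7 = true := by decide +kernel

theorem tw23_8 : twCheck [] g23 8 23 rel23_8 = true := by decide +kernel

theorem tw23_9 : twCheck [] g23 9 23 rel23_9 = true := by decide +kernel

theorem tw23_10 : twCheck [] g23 10 0 rel23_10 = true := by decide +kernel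

theorem tw23_11 : twCheck [] g23 11 0 rel23_11 = true := by decide +kernel

theorem tw23_12 : twCheck [] g23 12 23 rel23_12 = true := by decide +kernel

theorem tw23_13 : twCheck [] g23 13 23 rel23_13 = true := by decide +kernel

theorem tw23_14 : twCheck [] g23 14 0 rel23_14 = true := by decide +kernel

theorem tw23_15 : twCheck [] g23 15 0 rel23_15 = true := by decide +kernel

theorem tw23_16 : twCheck [] g23 16 23 rel23_16 = true := by decide +kernel

theorem tw23_17 : twCheck [] g23 17 0 rel23_17 = true := by decide +kernel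

theorem tw23_18 : twCheck [] g23 18 23 rel23_18 = true := by decide +kernel

theorem tw23_19 : twCheck [] g23 19 0 rel23_19 = true := by decide +kernel

theorem tw23_20 : twCheck [] g23 20 0 rel23_20 = true := by decide +kernel

theorem tw23_21 : twCheck [] g23 21 0 rel23_21 = true := by decide +kernel

theorem tw23_22 : twCheck [] g23 22 0 rel23_22 = true := by decide +kernel

theorem tw23 : ∀ t : Fin 22, twCheck [] g23 (t + 1)
    ((![23, 23, 23, 23, 0, 23, 0, 23, 23, 0, 0, 23, 23, 0, 0, 23, 0, 23, 0, 0, 0, 0] : Fin 22 → ℕ) t) (![rel23_1, rel23_2, rel23_3, rel23_4, rel23_5, rel23_6, rel23_7, rel23_8, rel23_9, rel23_10, rel23_11, rel23_12, rel23_13, rel23_14, rel23_15, rel23_16, rel23_17, rel23_18, rel23_19, rel23_20, rel23_21, rel23_22] t) = true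
  | ⟨0, _⟩ => tw23_1
  | ⟨1, _⟩ => tw23_2
  | ⟨2, _⟩ => tw23_3
  | ⟨3, _⟩ => tw23_4
  | ⟨4, _⟩ => tw23_5
  | ⟨5, _⟩ => tw23_6
  | ⟨6, _⟩ => tw23_7
  | ⟨7, _⟩ => tw23_8
  | ⟨8, _⟩ => tw23_9
  | ⟨9, _⟩ => tw23_10
  | ⟨10, _⟩ => tw23_11
  | ⟨11, _⟩ => tw23_12
  | ⟨12, _⟩ => tw23_13
  | ⟨13, _⟩ => tw23_14
  | ⟨14, _⟩ => tw23_15
  | ⟨15, _⟩ => tw23_16
  | ⟨16, _⟩ => tw23_17
  | ⟨17, _⟩ => tw23_18
  | ⟨18, _⟩ => tw23_19
  | ⟨19, _⟩ => tw23_20
  | ⟨20, _⟩ => tw23_21
  | ⟨21, _⟩ => tw23_22
  | ⟨n + 22, h⟩ => absurd h (by omega)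

end Cfsg.Agent.M24.BlockData
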