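import Cfsg.Agent.M24.Search
import Cfsg.Agent.M24.Classes

/-!
Search tests in M24: twisted commutation with a coded permutation and stability of position sets;
normalizer and centralizer bounds read off from certified searches.
-/

set_option autoImplicit false

namespace Cfsg.Agent.M24

open Cfsg Cfsg.Agent.Golay

/-- Iterates of a coded permutation. -/
def powPos (h : ℕ) : ℕ → ℕ → ℕ
  | 0, x => x
  | s + 1, x => papp h (powPos h s x)

/-- The listed relations among base points hold, level by level: at level `m`, the entry `(i, s, j, c)`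
says that `g ^ s` maps base point `i` to base point `j`, both below `m`, and that `c` is the code
of `g ^ (t * s)`. -/
def relsOK (tg t : ℕ) (rel : List (List (ℕ × ℕ × ℕ × ℕ))) : Bool :=
  (List.range rel.length).all fun m => (rel.getD m []).all fun r =>
    Nat.ble (r.1 + 1) m && Nat.ble (r.2.2.1 + 1) m && Nat.ble m 7 &&
    Nat.beq (powPos tg r.2.1 (basePos r.1)) (basePos r.2.2.1) &&
    (List.range 24).all fun i => Nat.beq (papp r.2.2.2 i) (powPos tg (t * r.2.1) i)

/-- Pruning for `x * g = g ^ t * x`: only the relations completed by the last image are tested. -/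
def okTw (rel : List (List (ℕ × ℕ × ℕ × ℕ))) (im : List ℕ) : Bool :=
  (rel.getD im.length []).all fun r =>
    Nat.beq (papp r.2.2.2 (im.getD r.1 0)) (im.getD r.2.2.1 0)

/-- Test for `x * g = g ^ t * x`. -/
def fullTw (tg t : ℕ) (tbl : List ℕ) : Bool :=
  (List.range 24).all fun i => Nat.beq (tbl.getD (papp tg i) 0) (powPos tg t (tbl.getD i 0))

/-- Membership of a position in a list. -/
def memPos (i : ℕ) (T : List ℕ) : Bool := T.any (Nat.beq i)

theorem memPos_iff {i : ℕ} {T : List ℕ} : memPos i T = true ↔ i ∈ T := by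
  simp [memPos, List.any_eq_true]

/-- Pruning for stability of position sets. -/
def okSets (S : List (List ℕ)) (im : List ℕ) : Bool :=
  (List.range im.length).all fun j => S.all fun T =>
    memPos (im.getD j 0) T == memPos (basePos j) T

/-- Test for stability of position sets. -/
def fullSets (S : List (List ℕ)) (tbl : List ℕ) : Bool :=
  (List.range 24).all fun i => S.all fun T => memPos (tbl.getD i 0) T == memPos i T

theorem tableOf_getD (g : Equiv.Perm GolayPt) {i : ℕ} (hi : i < 24) :
    (tableOf g).getD i 0 = ptIdx (g (ptOf i)) := by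
  rw [tableOf, List.getD_eq_getElem _ _ (by simpa using hi)]
  simp

theorem imgsOf_getD (g : Equiv.Perm GolayPt) {j k : ℕ} (hj : j < k) :
    (imgsOf g k).getD j 0 = ptIdx (g (basePt j)) := by
  rw [imgsOf, List.getD_eq_getElem _ _ (by simpa using hj)]
  simp

theorem imgsOf_length (g : Equiv.Perm GolayPt) (k : ℕ) : (imgsOf g k).length = k := by
  simp [imgsOf]

theorem Rep.powPos_eq {t : ℕ} {g : Equiv.Perm GolayPt} (h : Rep t g) (s : ℕ) (p : GolayPt) :
    powPos t s (ptIdx p) = ptIdx ((g ^ s) p) := by
  induction s with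
  | zero => simp [powPos]
  | succ s ih => rw [powPos, ih, ← h, pow_succ', Equiv.Perm.mul_apply]

theorem Tests.and {P P' : Equiv.Perm GolayPt → Prop} {ok ok' full full' : List ℕ → Bool}
    (h : Tests P ok full) (h' : Tests P' ok' full') :
    Tests (fun g => P g ∧ P' g) (fun im => ok im && ok' im) (fun tb => full tb && full' tb) :=
  ⟨fun g hg => by simp [h.iff_full g hg, h'.iff_full g hg],
    fun g hg hp k hk => by simp [h.ok_of g hg hp.1 k hk, h'.ok_of g hg hp.2 k hk]⟩

theorem tests_tw {tg : ℕ} {g : Equiv.Perm GolayPt} (hg : Rep tg g) (t : ℕ)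
    {rel : List (List (ℕ × ℕ × ℕ × ℕ))} (hrel : relsOK tg t rel = true) :
    Tests (fun x => x * g = g ^ t * x) (okTw rel) (fullTw tg t) := by
  refine ⟨fun x _ => ?_, fun x _ hx k _ => ?_⟩
  · rw [fullTw, List.all_eq_true]
    constructor
    · intro h i hi
      have hi' := List.mem_range.mp hi
      rw [Nat.beq_eq, tableOf_getD x hi', hg.powPos_eq]
      have e : papp tg i = ptIdx (g (ptOf i)) := by rw [hg, ptIdx_ptOf i hi']
      rw [e, tableOf_getD x (ptIdx_lt _), ptOf_ptIdx]
      exact congrArg ptIdx (DFunLike.congr_fun h (ptOf i))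
    · intro h
      refine Equiv.ext fun p => ptIdx_injective ?_
      have := Nat.eq_of_beq_eq_true (h (ptIdx p) (List.mem_range.mpr (ptIdx_lt p)))
      rw [tableOf_getD x (ptIdx_lt p), ← hg, tableOf_getD x (ptIdx_lt _), ptOf_ptIdx, ptOf_ptIdx,
        hg.powPos_eq] at this
      exact this
  · rw [okTw, List.all_eq_true]
    intro r hr
    rw [imgsOf_length] at hr
    rw [Nat.beq_eq]
    have hk : k < rel.length := by
      by_contra hk
      rw [List.getD_eq_default _ _ (not_lt.mp hk)] at hr
      exact List.not_mem_nil hr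
    have h3 := (List.all_eq_true.mp ((List.all_eq_true.mp hrel) k (List.mem_range.mpr hk))) r hr
    simp only [Bool.and_eq_true, Nat.ble_eq, Nat.beq_eq, List.all_eq_true, List.mem_range] at h3
    obtain ⟨⟨⟨⟨hr1, hr2⟩, -⟩, he⟩, hcode⟩ := h3
    rw [imgsOf_getD x hr1, imgsOf_getD x hr2, hcode _ (ptIdx_lt _), hg.powPos_eq]
    rw [← ptIdx_basePt _ (by omega), hg.powPos_eq, ← ptIdx_basePt _ (by omega)] at he
    rw [← ptIdx_injective he, pow_mul, ← Equiv.Perm.mul_apply, ← Equiv.Perm.mul_apply]
    exact congrArg ptIdx (DFunLike.congr_fun ((show SemiconjBy x g (g ^ t) from hx).pow_right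
      r.2.1).eq _).symm

/-- The permutations stabilising each listed set of positions. -/
def setStab (S : List (List ℕ)) : Subgroup (Equiv.Perm GolayPt) where
  carrier := {x | ∀ p : GolayPt, ∀ T ∈ S, ptIdx (x p) ∈ T ↔ ptIdx p ∈ T}
  one_mem' := fun _ _ _ => Iff.rfl
  mul_mem' := fun {x y} hx hy p T hT => (hx (y p) T hT).trans (hy p T hT)
  inv_mem' := fun {x} hx p T hT => by
    have := hx (x⁻¹ p) T hT
    rw [Equiv.Perm.coe_inv, Equiv.apply_symm_apply] at this
    exact this.symm

theorem mem_setStab {S : List (List ℕ)} {x : Equiv.Perm GolayPt} :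
    x ∈ setStab S ↔ ∀ p : GolayPt, ∀ T ∈ S, ptIdx (x p) ∈ T ↔ ptIdx p ∈ T := Iff.rfl

theorem memPos_beq_iff {i j : ℕ} {T : List ℕ} :
    (memPos i T == memPos j T) = true ↔ (i ∈ T ↔ j ∈ T) := by
  rw [beq_iff_eq, ← memPos_iff (i := i), ← memPos_iff (i := j)]
  constructor
  · intro h; rw [h]
  · intro h; exact Bool.eq_iff_iff.mpr h

theorem fullSets_iff (S : List (List ℕ)) (x : Equiv.Perm GolayPt) :
    fullSets S (tableOf x) = true ↔ x ∈ setStab S := by
  simp only [fullSets, List.all_eq_true, List.mem_range, memPos_beq_iff]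
  constructor
  · intro h p T hT
    have := h (ptIdx p) (ptIdx_lt p) T hT
    rwa [tableOf_getD x (ptIdx_lt p), ptOf_ptIdx] at this
  · intro h i hi T hT
    rw [tableOf_getD x hi]
    have := h (ptOf i) T hT
    rwa [ptIdx_ptOf i hi] at this

theorem tests_sets (S : List (List ℕ)) :
    Tests (fun x => x ∈ setStab S) (okSets S) (fullSets S) := by
  refine ⟨fun x _ => (fullSets_iff S x).symm, fun x _ hx k hk => ?_⟩
  simp only [okSets, List.all_eq_true, List.mem_range, imgsOf_length, memPos_beq_iff]
  intro j hj T hT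
  rw [imgsOf_getD x hj, ← ptIdx_basePt j (by omega)]
  exact hx _ T hT

/-- The images of the first base points under a function on positions. -/
def baseOf (k : ℕ) (f : ℕ → ℕ) : List ℕ := (List.range k).map fun j => f (basePos j)

/-- The table of a function on positions. -/
def tblOf (f : ℕ → ℕ) : List ℕ := (List.range 24).map f

/-- Pruning for twisted commutation on the composite function. -/
def okC (rel : List (List (ℕ × ℕ × ℕ × ℕ))) (k : ℕ) (f : ℕ → ℕ) : Bool :=
  (rel.getD k []).all fun r => Nat.beq (papp r.2.2.2 (f (basePos r.1))) (f (basePos r.2.2.1))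

/-- The number of paths passing the tests, without forming the paths. -/
def searchN (ok : ℕ → (ℕ → ℕ) → Bool) (full : (ℕ → ℕ) → Bool) :
    List (List ℕ) → ℕ → (ℕ → ℕ) → ℕ
  | [], k, f => bif ok k f && full f then 1 else 0
  | T :: rest, k, f => bif ok k f then
      (T.map fun t => searchN ok full rest (k + 1) fun i => f (papp t i)).sum else 0

/-- Whether every path passing the tests passes a check, without forming the paths. -/
def searchA (ok : ℕ → (ℕ → ℕ) → Bool) (full chk : (ℕ → ℕ) → Bool) :
    List (List ℕ) → ℕ → (ℕ → ℕ) → Bool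
  | [], k, f => bif ok k f && full f then chk f else true
  | T :: rest, k, f => bif ok k f then
      T.all fun t => searchA ok full chk rest (k + 1) fun i => f (papp t i) else true

theorem baseImgs_eq_baseOf (P : List ℕ) : baseImgs P = baseOf P.length (act P) := rfl

theorem allImgs_eq_tblOf (P : List ℕ) : allImgs P = tblOf (act P) := rfl

theorem act_snoc (P : List ℕ) (t : ℕ) : act (P ++ [t]) = fun i => act P (papp t i) :=
  funext fun i => by rw [act_append]; rfl

theorem searchN_eq {ok full : List ℕ → Bool} {ok' : ℕ → (ℕ → ℕ) → Bool}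
    (hok : ∀ k f, ok (baseOf k f) = ok' k f) : ∀ (ls : List (List ℕ)) (P : List ℕ),
      (searchFrom ok full ls P).length =
        searchN ok' (fun f => full (tblOf f)) ls P.length (act P)
  | [], P => by
    rw [searchFrom, searchN, baseImgs_eq_baseOf, hok, allImgs_eq_tblOf]
    cases (ok' P.length (act P) && full (tblOf (act P))) <;> rfl
  | T :: rest, P => by
    rw [searchFrom, searchN, baseImgs_eq_baseOf, hok]
    cases ok' P.length (act P)
    · rfl
    simp only [cond_true, List.length_flatMap]
    congr 1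
    refine List.map_congr_left fun t _ => ?_
    rw [searchN_eq hok rest (P ++ [t]), act_snoc, List.length_append]
    rfl

theorem searchA_eq {ok full : List ℕ → Bool} {ok' : ℕ → (ℕ → ℕ) → Bool}
    (hok : ∀ k f, ok (baseOf k f) = ok' k f) (chk : List ℕ → Bool) :
    ∀ (ls : List (List ℕ)) (P : List ℕ),
      (searchFrom ok full ls P).all (fun Q => chk (allImgs Q)) =
        searchA ok' (fun f => full (tblOf f)) (fun f => chk (tblOf f)) ls P.length (act P)
  | [], P => by
    rw [searchFrom, searchA, baseImgs_eq_baseOf, hok, allImgs_eq_tblOf]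
    cases h : (ok' P.length (act P) && full (tblOf (act P)))
    · rfl
    · simp [allImgs_eq_tblOf]
  | T :: rest, P => by
    rw [searchFrom, searchA, baseImgs_eq_baseOf, hok]
    cases ok' P.length (act P)
    · rfl
    simp only [cond_true, List.all_flatMap]
    refine congrArg T.all (funext fun t => ?_)
    rw [searchA_eq hok chk rest (P ++ [t]), act_snoc, List.length_append]
    rfl

theorem card_of_tests {Pred : Equiv.Perm GolayPt → Prop} {ok full : List ℕ → Bool}
    (ht : Tests Pred ok full) {ok' : ℕ → (ℕ → ℕ) → Bool} (hok : ∀ k f, ok (baseOf k f) = ok' k f)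
    {n : ℕ} (h : searchN ok' (fun f => full (tblOf f)) transTab 0 (act []) = n) :
    Nat.card {g : Equiv.Perm GolayPt // g ∈ M24 ∧ Pred g} = n := by
  rw [search_card ht, search, searchN_eq hok, List.length_nil, h]

theorem forall_of_tests {Pred : Equiv.Perm GolayPt → Prop} {ok full : List ℕ → Bool}
    (ht : Tests Pred ok full) {ok' : ℕ → (ℕ → ℕ) → Bool} (hok : ∀ k f, ok (baseOf k f) = ok' k f)
    {chk : List ℕ → Bool}
    (h : searchA ok' (fun f => full (tblOf f)) (fun f => chk (tblOf f)) transTab 0 (act []) = true)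
    {g : Equiv.Perm GolayPt} (hg : g ∈ M24) (hp : Pred g) : chk (tableOf g) = true :=
  search_forall ht (by rw [search, searchA_eq hok, List.length_nil, h]) hg hp

theorem okTw_baseOf {tg t : ℕ} {rel : List (List (ℕ × ℕ × ℕ × ℕ))}
    (hrel : relsOK tg t rel = true) (k : ℕ) (f : ℕ → ℕ) :
    okTw rel (baseOf k f) = okC rel k f := by
  have hlen : (baseOf k f).length = k := by simp [baseOf]
  rw [okTw, okC, hlen, Bool.eq_iff_iff, List.all_eq_true, List.all_eq_true]
  refine forall₂_congr fun r hr => ?_
  have hk : k < rel.length := by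
    by_contra hk
    rw [List.getD_eq_default _ _ (not_lt.mp hk)] at hr
    exact List.not_mem_nil hr
  have h3 := (List.all_eq_true.mp ((List.all_eq_true.mp hrel) k (List.mem_range.mpr hk))) r hr
  simp only [Bool.and_eq_true, Nat.ble_eq] at h3
  obtain ⟨⟨⟨⟨hr1, hr2⟩, -⟩, -⟩, -⟩ := h3
  rw [baseOf, List.getD_eq_getElem _ _ (by simp; omega), List.getD_eq_getElem _ _ (by simp; omega)]
  simp

end Cfsg.Agent.M24
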