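/-!
Elements commuting with the fixed-point-free involution, one for each image of the first base
point.
-/

namespace Cfsg.Agent.M24

/-- Coded elements of the centraliser, the `q`-th sending position 23 to `q`. -/
def ord2Fix0Cent : List Nat :=
  [17739009920735306807106826245014615,
    53975735019778730688621814981788386,
    87810759201948576785222420379819009,
    151312289518243168174768130576366117,
    185749064364336447030818609755961040,
    208517718611929756440428683538741795,
    277802762106971594471635877058106983,
    295977062568739068209274053557014182,
    339338269019557131371470981585514060,
    392749041476003322749952495265201802,
    438184174987307855764040771787969001,
    485744997388561201905355372424605970,
    498632278114183410033118181125638504,
    547367240046931043399683952500883606,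
    608905874913905367144363339868836977,
    631372732986968380917343501631367476,
    683665006956660079258043964357621444,
    711396746534115718008834543758709870,
    754841732693880210937934496257880331,
    793217206626964617341775821014572245,
    836004256840395778637759398773205295,
    886201127786280839947690613078497523,
    940258995956873080091671160130474509,
    984818244535754528103549039458486304]

end Cfsg.Agent.M24
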