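import Cfsg.Agent.Golay.Mathieu

/-!
Six-point sets: every permutation of them is induced, and the orders of the stabilisers.
-/

set_option autoImplicit false

namespace Cfsg.Agent.M24

open Cfsg Cfsg.Agent.Golay
open scoped Pointwise

/-- A normal form for six points not in an octad. -/
def outPt (i : Fin 6) : GolayPt := if (i : ℕ) < 5 then basePt i else basePt 6

/-- A normal form for six points. -/
def normPt (b : Bool) (i : Fin 6) : GolayPt := bif b then basePt i else outPt i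

theorem exists_to_norm (x : Fin 6 ↪ GolayPt) (b : Bool)
    (hb : b = true ↔ ∃ o ∈ octads, ∀ i, x i ∈ o) : ∃ g ∈ M24, ∀ i, g (x i) = normPt b i := by
  cases b with
  | true =>
    obtain ⟨o, ho, hx⟩ := hb.mp rfl
    obtain ⟨g, hg, -, h⟩ := exists_to_base_six ho x hx
    exact ⟨g, hg, h⟩
  | false =>
    obtain ⟨g, hg, h⟩ := exists_to_base_five (Fin.castSuccEmb.trans x)
    have h' : ∀ i : Fin 6, (i : ℕ) < 5 → g (x i) = basePt i := fun i hi => by
      have := h ⟨i, hi⟩
      simpa [show Fin.castSucc (⟨i, hi⟩ : Fin 5) = i from Fin.ext rfl] using this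
    have hy : g (x 5) ∉ oct0 := fun hmem => Bool.false_ne_true (hb.mpr
      ⟨g⁻¹ • oct0, smul_mem_octads (inv_mem hg) oct0_mem, fun i => by
        rw [Finset.mem_inv_smul_finset_iff, Equiv.Perm.smul_def]
        by_cases hi : (i : ℕ) < 5
        · rw [h' i hi]; exact basePt_mem_oct0 ⟨i, hi⟩
        · obtain rfl : i = 5 := Fin.ext (show (i : ℕ) = 5 by omega)
          exact hmem⟩)
    obtain ⟨a, ha, ea⟩ := exists_chainStab_move (H := M24) gen3_le (k := 6) (by norm_num)
      (y := g (x 5)) (by rw [IsTarget, if_neg (by norm_num), if_neg (by norm_num)]; exact hy)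
    obtain ⟨ham, hafix⟩ := mem_chainStab.mp ha
    refine ⟨a⁻¹ * g, mul_mem (inv_mem ham) hg, fun i => ?_⟩
    rw [Equiv.Perm.mul_apply, Equiv.Perm.inv_eq_iff_eq, normPt, cond_false, outPt]
    split_ifs with hi
    · rw [h' i hi, hafix i (by omega)]
    · obtain rfl : i = 5 := Fin.ext (show (i : ℕ) = 5 by omega)
      exact ea.symm

theorem exists_six (x y : Fin 6 ↪ GolayPt)
    (h : (∃ o ∈ octads, ∀ i, x i ∈ o) ↔ ∃ o ∈ octads, ∀ i, y i ∈ o) :
    ∃ g ∈ M24, ∀ i, g (x i) = y i := by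
  classical
  set b := decide (∃ o ∈ octads, ∀ i, x i ∈ o) with hb
  obtain ⟨g, hg, eg⟩ := exists_to_norm x b (by rw [hb, decide_eq_true_iff])
  obtain ⟨k, hk, ek⟩ := exists_to_norm y b (by rw [hb, decide_eq_true_iff, h])
  exact ⟨k⁻¹ * g, mul_mem (inv_mem hk) hg, fun i => by
    rw [Equiv.Perm.mul_apply, Equiv.Perm.inv_eq_iff_eq, eg, ek]⟩

/-- A listing of six points. -/
noncomputable def listSix {E : Finset GolayPt} (hE : E.card = 6) : Fin 6 ↪ GolayPt :=
  (E.equivFinOfCardEq hE).symm.toEmbedding.trans (Function.Embedding.subtype _)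

theorem listSix_mem {E : Finset GolayPt} (hE : E.card = 6) (i : Fin 6) : listSix hE i ∈ E :=
  ((E.equivFinOfCardEq hE).symm i).2

theorem listSix_forall {E : Finset GolayPt} (hE : E.card = 6) (P : GolayPt → Prop) :
    (∀ i, P (listSix hE i)) ↔ ∀ p ∈ E, P p := by
  refine ⟨fun h p hp => ?_, fun h i => h _ (listSix_mem hE i)⟩
  have := h (E.equivFinOfCardEq hE ⟨p, hp⟩)
  simpa [listSix] using this

theorem exists_perm_six {E : Finset GolayPt} (hE : E.card = 6) (σ : Equiv.Perm ↥E) :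
    ∃ g ∈ M24, ∀ p : ↥E, g p = σ p := by
  let e := E.equivFinOfCardEq hE
  let y : Fin 6 ↪ GolayPt := (e.symm.trans σ).toEmbedding.trans (Function.Embedding.subtype _)
  obtain ⟨g, hg, h⟩ := exists_six (listSix hE) y (by
    refine exists_congr fun o => and_congr_right fun _ => ?_
    rw [listSix_forall hE (· ∈ o)]
    refine ⟨fun h i => h _ (σ (e.symm i)).2, fun h p hp => ?_⟩
    have := h (e (σ.symm ⟨p, hp⟩))
    simpa [y] using this)
  refine ⟨g, hg, fun p => ?_⟩
  have := h (e p)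
  simpa [listSix, y, e] using this

/-- The pointwise stabilisers of two six-point sets in correspondence. -/
def fixEquiv {E : Finset GolayPt} {S : Subgroup (Equiv.Perm GolayPt)} {k : Equiv.Perm GolayPt}
    (h : ∀ g, (g ∈ M24 ∧ ∀ p ∈ E, g p = p) ↔ k * g * k⁻¹ ∈ S) :
    {g : Equiv.Perm GolayPt // g ∈ M24 ∧ ∀ p ∈ E, g p = p} ≃ S where
  toFun g := ⟨k * g.1 * k⁻¹, (h _).mp g.2⟩
  invFun a := ⟨k⁻¹ * a.1 * k, (h _).mpr (by
    rw [show k * (k⁻¹ * a.1 * k) * k⁻¹ = a.1 by group]; exact a.2)⟩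
  left_inv g := Subtype.ext (show k⁻¹ * (k * g.1 * k⁻¹) * k = g.1 by group)
  right_inv a := Subtype.ext (show k * (k⁻¹ * a.1 * k) * k⁻¹ = a.1 by group)

theorem fix_iff_conj {k g : Equiv.Perm GolayPt} {x y : GolayPt} (h : k x = y) :
    g x = x ↔ (k * g * k⁻¹) y = y := by
  rw [← h, Equiv.Perm.mul_apply, Equiv.Perm.mul_apply, Equiv.Perm.coe_inv,
    Equiv.symm_apply_apply, k.injective.eq_iff]

theorem mem_M24_conj {k g : Equiv.Perm GolayPt} (hk : k ∈ M24) :
    g ∈ M24 ↔ k * g * k⁻¹ ∈ M24 :=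
  ⟨fun h => mul_mem (mul_mem hk h) (inv_mem hk), fun h => by
    have := mul_mem (mul_mem (inv_mem hk) h) hk
    rwa [show k⁻¹ * (k * g * k⁻¹) * k = g by group] at this⟩

theorem card_fix_octad {E : Finset GolayPt} (hE : E.card = 6) (h : ∃ o ∈ octads, E ⊆ o) :
    Nat.card {g : Equiv.Perm GolayPt // g ∈ M24 ∧ ∀ p ∈ E, g p = p} = 16 := by
  obtain ⟨o, ho, hEo⟩ := h
  obtain ⟨k, hk, -, hkx⟩ := exists_to_base_six ho (listSix hE) fun i => hEo (listSix_mem hE i)
  rw [← (card_chainStab (H := M24) gen3_le le_rfl).2.2.2.2.2.2]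
  refine Nat.card_congr (fixEquiv (k := k) fun g => ?_)
  rw [mem_chainStab, ← listSix_forall hE (fun p => g p = p), ← mem_M24_conj hk]
  refine and_congr_right fun _ => ?_
  exact ⟨fun h j hj => (fix_iff_conj (hkx ⟨j, hj⟩)).mp (h _),
    fun h i => (fix_iff_conj (hkx i)).mpr (h i i.isLt)⟩

/-- The pointwise stabiliser of the normal form outside the octads. -/
def outStab : Subgroup (Equiv.Perm GolayPt) :=
  chainStab M24 5 ⊓ MulAction.stabilizer (Equiv.Perm GolayPt) (basePt 6)

theorem card_outStab : Nat.card outStab = 3 := by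
  have h := card_eq_orbit_mul (chainStab M24 5) (basePt 6) oct0ᶜ (fun g hg => ?_) (fun y hy => ?_)
  · rw [(card_chainStab (H := M24) gen3_le le_rfl).2.2.2.2.2.1, Finset.card_compl, card_golayPt,
      (mem_octads_iff.mp oct0_mem).2] at h
    change 48 = _ * Nat.card outStab at h
    omega
  · obtain ⟨hgm, hfix⟩ := mem_chainStab.mp hg
    rw [Finset.mem_compl, apply_mem_octad_iff (smul_oct0_eq hgm hfix)]
    have := isTarget_base 6 (by norm_num)
    rwa [IsTarget, if_neg (by norm_num), if_neg (by norm_num)] at this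
  · obtain ⟨a, ha, e⟩ := exists_chainStab_move (H := M24) gen3_le (k := 6) (by norm_num) (y := y)
      (by rw [IsTarget, if_neg (by norm_num), if_neg (by norm_num)]; exact Finset.mem_compl.mp hy)
    refine ⟨a, ?_, e⟩
    rw [mem_chainStab] at ha ⊢
    exact ⟨ha.1, fun j hj => ha.2 j (by omega)⟩

theorem card_fix_out {E : Finset GolayPt} (hE : E.card = 6) (h : ¬∃ o ∈ octads, E ⊆ o) :
    Nat.card {g : Equiv.Perm GolayPt // g ∈ M24 ∧ ∀ p ∈ E, g p = p} = 3 := by
  obtain ⟨k, hk, hkx⟩ := exists_to_norm (listSix hE) false (by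
    simp only [Bool.false_eq_true, false_iff]
    rintro ⟨o, ho, hmem⟩
    exact h ⟨o, ho, fun p hp => (listSix_forall hE (· ∈ o)).mp hmem p hp⟩)
  rw [← card_outStab]
  refine Nat.card_congr (fixEquiv (k := k) fun g => ?_)
  have e6 : k * g * k⁻¹ ∈ MulAction.stabilizer (Equiv.Perm GolayPt) (basePt 6) ↔
      (k * g * k⁻¹) (basePt 6) = basePt 6 := Iff.rfl
  rw [outStab, Subgroup.mem_inf, mem_chainStab, e6,
    ← listSix_forall hE (fun p => g p = p), ← mem_M24_conj hk, and_assoc]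
  refine and_congr_right fun _ => ⟨fun h => ⟨fun j hj => ?_, ?_⟩, fun h i => ?_⟩
  · refine (fix_iff_conj ?_).mp (h ⟨j, by omega⟩)
    rw [hkx]; simp [normPt, outPt, hj]
  · refine (fix_iff_conj ?_).mp (h 5)
    rw [hkx]; simp [normPt, outPt]
  · by_cases hi : (i : ℕ) < 5
    · refine (fix_iff_conj (y := basePt i) ?_).mpr (h.1 i hi)
      rw [hkx]; simp [normPt, outPt, hi]
    · refine (fix_iff_conj (y := basePt 6) ?_).mpr h.2
      rw [hkx]; simp [normPt, outPt, hi]

/-- Restriction of the stabiliser of a set to the set. -/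
def restrictSet (E : Finset GolayPt) : MulAction.stabilizer M24 E →* Equiv.Perm ↥E where
  toFun g := ((g : M24) : Equiv.Perm GolayPt).subtypePerm fun x =>
    apply_mem_octad_iff (MulAction.mem_stabilizer_iff.mp g.2) x
  map_one' := Equiv.ext fun _ => rfl
  map_mul' _ _ := Equiv.ext fun _ => rfl

theorem card_setStab_out {E : Finset GolayPt} (hE : E.card = 6) (h : ¬∃ o ∈ octads, E ⊆ o) :
    Nat.card ↥(MulAction.stabilizer M24 E) = 2160 := by
  have hsurj : Function.Surjective (restrictSet E) := by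
    intro σ
    obtain ⟨g, hg, hgσ⟩ := exists_perm_six hE σ
    refine ⟨⟨⟨g, hg⟩, MulAction.mem_stabilizer_iff.mpr ?_⟩, Equiv.ext fun p => Subtype.ext (hgσ p)⟩
    refine Finset.eq_of_subset_of_card_le (fun x hx => ?_) (Finset.card_smul_finset g E).ge
    obtain ⟨y, hy, rfl⟩ := Finset.mem_smul_finset.mp hx
    show g y ∈ E
    rw [hgσ ⟨y, hy⟩]
    exact (σ _).2
  have hker : Nat.card (restrictSet E).ker = 3 := by
    rw [← card_fix_out hE h]
    refine Nat.card_congr
      { toFun := fun g => ⟨((g.1 : M24) : Equiv.Perm GolayPt), g.1.1.2, fun p hp =>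
          congrArg Subtype.val (Equiv.ext_iff.mp (MonoidHom.mem_ker.mp g.2) ⟨p, hp⟩)⟩
        invFun := fun g => ⟨⟨⟨g.1, g.2.1⟩, MulAction.mem_stabilizer_iff.mpr ?_⟩,
          MonoidHom.mem_ker.mpr (Equiv.ext fun p => Subtype.ext (g.2.2 p.1 p.2))⟩
        left_inv := fun _ => rfl
        right_inv := fun _ => rfl }
    refine Finset.eq_of_subset_of_card_le (fun x hx => ?_) (Finset.card_smul_finset g.1 E).ge
    obtain ⟨y, hy, rfl⟩ := Finset.mem_smul_finset.mp hx
    show g.1 y ∈ E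
    rw [g.2.2 y hy]
    exact hy
  have := Subgroup.card_mul_index (restrictSet E).ker
  rw [Subgroup.index_ker, MonoidHom.range_eq_top.mpr hsurj, Subgroup.card_top, Nat.card_perm,
    Nat.card_eq_fintype_card (α := ↥E), Fintype.card_coe, hE, hker] at this
  rw [← this]
  rfl

end Cfsg.Agent.M24
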