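import Cfsg.Agent.M24.ThreeSubgroups
import Cfsg.Agent.M24.SixPoints
import Cfsg.Agent.Golay.FixedPoints

/-!
Fixed points of commuting elements of orders 3 and 2: an involution centralising an element of
order 3 with six fixed points has fixed points.
-/

set_option autoImplicit false

namespace Cfsg.Agent.M24

open Cfsg Cfsg.Agent.Golay
open scoped Pointwise

/-- An element of order 3 fixing the six points of the normal form. -/
def outTab : ℕ := 972606645568131968584696805283956768

/-- Positions of the six points of the normal form. -/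
def outPos : List ℕ := [23, 0, 1, 2, 3, 4]

theorem outPos_spec : (List.finRange 6).map (fun i => ptIdx (outPt i)) = outPos := by
  decide +kernel

theorem outTab_facts : GoodTab outTab = true ∧
    (List.range 5).all (fun j => Nat.beq (papp outTab (basePos j)) (basePos j)) = true ∧
    Nat.beq (papp outTab (basePos 6)) (basePos 6) = true ∧
    powOne 3 (papp outTab) = true ∧ fixCount outTab ≠ 24 := by
  decide +kernel

theorem mem_outPos {p : GolayPt} : ptIdx p ∈ outPos ↔ ∃ i, p = outPt i := by
  rw [← outPos_spec, List.mem_map]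
  simp only [List.mem_finRange, true_and]
  exact exists_congr fun i => ⟨fun h => (ptIdx_injective h).symm, fun h => h ▸ rfl⟩

/-- Involutions without fixed points preserving the six points and centralising the element. -/
def SwapOut (g : Equiv.Perm GolayPt) : Prop :=
  (∀ i, ∃ k, g (outPt i) = outPt k) ∧ (∀ p, g p ≠ p) ∧ g ^ 2 = 1 ∧
    ∀ j < 7, g (elemOf outTab (basePt j)) = elemOf outTab (g (basePt j))

/-- Pruning. -/
def okSwapOut (im : List ℕ) : Bool :=
  [0, 1, 2, 3, 4, 6].all fun j =>
    imgOK im j fun x => outPos.contains x && !Nat.beq x (basePos j)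

/-- Full test. -/
def fullSwapOut (f : ℕ → ℕ) : Bool :=
  (outPos.all fun i => outPos.contains (f i)) &&
    ((List.range 24).all fun i => !Nat.beq (f i) i) && powOne 2 f &&
    allBase fun i => Nat.beq (f (papp outTab i)) (papp outTab (f i))

theorem tests_swapOut : ScanTests SwapOut okSwapOut fullSwapOut := by
  obtain ⟨hgood, -⟩ := outTab_facts
  obtain ⟨-, hr⟩ := elemOf_spec hgood
  refine ⟨fun f f' h h24 => ?_, fun g hg => ?_, fun g _ hp k _ => ?_⟩
  · have h6 : ∀ i ∈ outPos, i < 24 := by decide
    have hall : ∀ (L : List ℕ) (p : ℕ → ℕ → Bool), (∀ i ∈ L, i < 24) →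
        (L.all fun i => p i (f i)) = L.all fun i => p i (f' i) := by
      intro L p hL
      rw [Bool.eq_iff_iff, List.all_eq_true, List.all_eq_true]
      exact forall_congr' fun i => ⟨fun e hi => h i (hL i hi) ▸ e hi,
        fun e hi => (h i (hL i hi)).symm ▸ e hi⟩
    simp only [fullSwapOut, powOne_congr h h24]
    congr 1
    · congr 1
      rw [hall outPos (fun _ y => outPos.contains y) h6,
        hall (List.range 24) (fun i y => !Nat.beq y i) fun i hi => List.mem_range.mp hi]
    · refine allBase_congr fun j hj => ?_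
      rw [h _ (basePos_lt j hj), h _ (hr.papp_lt (basePos_lt j hj))]
  · simp only [fullSwapOut, SwapOut, Bool.and_eq_true, List.all_eq_true, powOne_iff hg,
      allBase_iff, Nat.beq_eq, List.contains_iff_mem, and_assoc]
    refine and_congr ?_ (and_congr ?_ (and_congr Iff.rfl ?_))
    · constructor
      · intro h i hi
        rw [← outPos_spec, List.mem_map] at hi
        obtain ⟨a, -, rfl⟩ := hi
        rw [posFun_ptIdx]
        exact mem_outPos.mpr (h a)
      · intro h i
        have := h _ (mem_outPos.mpr ⟨i, rfl⟩)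
        rw [posFun_ptIdx] at this
        exact mem_outPos.mp this
    · simp only [List.mem_range, Bool.not_eq_true', ← Bool.not_eq_true, Nat.beq_eq]
      constructor
      · intro h i hi e
        refine h (ptOf i) (ptIdx_injective ?_)
        rw [ptIdx_ptOf i hi]; exact e
      · intro h p e
        exact h _ (ptIdx_lt p) (by rw [posFun_ptIdx, e])
    · refine forall_congr' fun j => forall_congr' fun hj => ?_
      rw [← ptIdx_basePt j hj, ← hr, posFun_ptIdx, posFun_ptIdx, ← hr, ptIdx_injective.eq_iff]
  · obtain ⟨h1, h2, -, -⟩ := hp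
    simp only [okSwapOut, List.all_eq_true]
    intro j hj
    refine imgOK_baseImages _ _ _ _ ?_
    obtain ⟨i, hi⟩ : ∃ i, basePt j = outPt i := mem_outPos.mp (by
      have : ∀ j ∈ [0, 1, 2, 3, 4, 6], ptIdx (basePt j) ∈ outPos := by decide +kernel
      exact this j hj)
    have hj7 : j < 7 := by
      have : ∀ j ∈ [0, 1, 2, 3, 4, 6], j < 7 := by decide
      exact this j hj
    simp only [Bool.and_eq_true, List.contains_iff_mem, Bool.not_eq_true', ← Bool.not_eq_true,
      Nat.beq_eq]
    refine ⟨mem_outPos.mpr (hi ▸ h1 i), fun e => ?_⟩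
    rw [← ptIdx_basePt j hj7] at e
    exact h2 _ (ptIdx_injective e)

set_option maxHeartbeats 4000000 in
theorem no_swapOut : scan okSwapOut fullSwapOut = [] := by decide +kernel

theorem no_swap_six {x s : Equiv.Perm GolayPt} (hx : x ∈ M24) (hs : s ∈ M24) (h₃ : orderOf x = 3)
    (h₂ : orderOf s = 2) (hc : Commute x s)
    (h6 : (Finset.univ.filter fun p => x p = p).card = 6)
    (h0 : ∀ p, s p ≠ p) : False := by
  haveI : Fact (Nat.Prime 3) := ⟨Nat.prime_three⟩
  have hE : (fixSet x).card = 6 := h6
  have hout : ¬∃ o ∈ octads, fixSet x ⊆ o := by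
    rintro ⟨o, ho, hsub⟩
    have hxo : x • o = o := by
      refine Golay.octad_eq_of_five (smul_mem_octads hx ho) ho ?_
      refine le_trans (by omega : 5 ≤ (fixSet x).card) (Finset.card_le_card ?_)
      intro p hp
      refine Finset.mem_inter.mpr ⟨?_, hsub hp⟩
      rw [← mem_fixSet.mp hp]
      exact Finset.smul_mem_smul_finset (hsub hp)
    have hm := card_mod_fix h₃ o fun p hp => (apply_mem_octad_iff hxo p).mpr hp
    rw [(mem_octads_iff.mp ho).2, show o.filter (fun p => x p = p) = fixSet x from by
      ext p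
      simp only [Finset.mem_filter, mem_fixSet]
      exact ⟨fun h => h.2, fun h => ⟨hsub (mem_fixSet.mpr h), h⟩⟩, hE] at hm
    omega
  obtain ⟨k, hk, hkx⟩ := exists_to_norm (listSix hE) false (by
    simp only [Bool.false_eq_true, false_iff]
    rintro ⟨o, ho, hmem⟩
    exact hout ⟨o, ho, (listSix_forall hE (· ∈ o)).mp hmem⟩)
  have hn : ∀ i, k (listSix hE i) = outPt i := fun i => hkx i
  have hfix : ∀ p, (k * x * k⁻¹) p = p ↔ ∃ i, p = outPt i := by
    intro p
    constructor
    · intro h
      have hkp : k (k⁻¹ p) = p := k.apply_symm_apply p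
      have hmem : k⁻¹ p ∈ fixSet x := mem_fixSet.mpr ((fix_iff_conj hkp).mpr h)
      by_contra hne
      push Not at hne
      refine (listSix_forall hE (fun q => k q ≠ p)).mp (fun i => ?_) _ hmem hkp
      rw [hn]
      exact (hne i).symm
    · rintro ⟨i, rfl⟩
      exact (fix_iff_conj (hn i)).mp (mem_fixSet.mp (listSix_mem hE i))
  obtain ⟨hgood, hb5, hb6, hpow, hne⟩ := outTab_facts
  obtain ⟨hrm, hr⟩ := elemOf_spec hgood
  have hbase : ∀ j < 7, papp outTab (basePos j) = basePos j →
      elemOf outTab (basePt j) = basePt j := fun j hj h => ptIdx_injective (by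
    rw [hr, ptIdx_basePt j hj, h])
  have hrout : elemOf outTab ∈ outStab := by
    refine Subgroup.mem_inf.mpr ⟨mem_chainStab.mpr ⟨hrm, fun j hj => hbase j (by omega) ?_⟩,
      hbase 6 (by norm_num) (Nat.eq_of_beq_eq_true hb6)⟩
    exact Nat.eq_of_beq_eq_true (List.all_eq_true.mp hb5 j (List.mem_range.mpr hj))
  have hxout : k * x * k⁻¹ ∈ outStab := by
    refine Subgroup.mem_inf.mpr ⟨mem_chainStab.mpr ⟨mul_mem (mul_mem hk hx) (inv_mem hk),
      fun j hj => (hfix _).mpr ⟨⟨j, by omega⟩, ?_⟩⟩, (hfix _).mpr ⟨5, ?_⟩⟩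
    · simp [outPt, hj]
    · simp [outPt]
  have hx3 : orderOf (k * x * k⁻¹) = 3 := by
    rw [← h₃, ← MulAut.conj_apply]
    exact MulEquiv.orderOf_eq _ _
  have hgen : Subgroup.zpowers (k * x * k⁻¹) = outStab :=
    Subgroup.eq_of_le_of_card_ge (Subgroup.zpowers_le.mpr hxout)
      (by rw [Nat.card_zpowers, hx3, card_outStab])
  obtain ⟨m, hm⟩ := Subgroup.mem_zpowers_iff.mp (hgen ▸ hrout)
  have hcs : Commute (k * x * k⁻¹) (k * s * k⁻¹) := by
    rw [← MulAut.conj_apply, ← MulAut.conj_apply]
    exact hc.map (MulAut.conj k).toMonoidHom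
  have hrs : Commute (elemOf outTab) (k * s * k⁻¹) := hm ▸ hcs.zpow_left m
  have hS : SwapOut (k * s * k⁻¹) := by
    refine ⟨fun i => ?_, fun p h => ?_, ?_, fun j _ => ?_⟩
    · refine (hfix _).mp ?_
      have h := DFunLike.congr_fun hcs.eq (outPt i)
      rwa [Equiv.Perm.mul_apply (k * x * k⁻¹), Equiv.Perm.mul_apply (k * s * k⁻¹),
        (hfix _).mpr ⟨i, rfl⟩] at h
    · have hkp : k (k⁻¹ p) = p := k.apply_symm_apply p
      exact h0 _ ((fix_iff_conj hkp).mpr h)
    · rw [conj_pow, ← h₂, pow_orderOf_eq_one]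
      group
    · exact (DFunLike.congr_fun hrs.eq (basePt j)).symm
  obtain ⟨Q, hQ, -⟩ := (scan_spec tests_swapOut).2.1 _
    (mul_mem (mul_mem hk hs) (inv_mem hk)) hS
  rw [no_swapOut] at hQ
  exact List.not_mem_nil hQ

/-- The possible fixed point counts of commuting elements of orders 3 and 2. -/
theorem commuting_fix {x s : Equiv.Perm GolayPt} (hx : x ∈ M24) (hs : s ∈ M24)
    (h₃ : orderOf x = 3) (h₂ : orderOf s = 2) (hc : Commute x s) :
    ((Finset.univ.filter fun p => x p = p).card = 6 ∧
        (Finset.univ.filter fun p => s p = p).card = 8) ∨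
      ((Finset.univ.filter fun p => x p = p).card = 0 ∧
        (Finset.univ.filter fun p => s p = p).card = 0) := by
  haveI : Fact (Nat.Prime 3) := ⟨Nat.prime_three⟩
  rcases fix_three_cases hx h₃ with e | e
  · refine Or.inl ⟨e, (fix_two_cases hs h₂).resolve_right fun e' => ?_⟩
    rw [Finset.card_eq_zero, Finset.filter_eq_empty_iff] at e'
    exact no_swap_six hx hs h₃ h₂ hc e fun p => e' (Finset.mem_univ p)
  · refine Or.inr ⟨e, (fix_two_cases hs h₂).resolve_left fun e' => ?_⟩
    have hm := card_mod_fix h₃ (Finset.univ.filter fun p => s p = p) fun p hp => by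
      simp only [Finset.mem_filter, Finset.mem_univ, true_and] at hp ⊢
      have h := DFunLike.congr_fun hc.eq p
      rw [Equiv.Perm.mul_apply, Equiv.Perm.mul_apply, hp] at h
      exact h.symm
    rw [Finset.card_eq_zero, Finset.filter_eq_empty_iff] at e
    rw [e', Finset.filter_eq_empty_iff.mpr fun p _ => e (Finset.mem_univ p)] at hm
    simp at hm

end Cfsg.Agent.M24
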