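import Cfsg.Agent.M24.Classes
import Cfsg.Agent.M24Geo.Dodecad
import Cfsg.Agent.M24Geo.Sextet
import Cfsg.Agent.M24Geo.Trio

/-!
Counting the octads, dodecads, trios and sextets fixed by a listed permutation.
-/

set_option autoImplicit false

namespace Cfsg.Agent.M24

open Cfsg
open scoped Pointwise

/-- A coded permutation in the other encoding of the positions. -/
def geoList (t : ℕ) : List ℕ := (List.range 24).map fun i => (papp t ((i + 23) % 24) + 1) % 24

theorem idx_shift : ∀ p : GolayPt,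
    M24Geo.idx p = (Golay.ptIdx p + 1) % 24 ∧ (M24Geo.idx p + 23) % 24 = Golay.ptIdx p := by
  decide +kernel

theorem elemOf_eq_permOf {t : ℕ} (ht : GoodTab t = true)
    (hl : M24Geo.autL (geoList t) = true) : elemOf t = M24Geo.permOf (geoList t) := by
  simp only [M24Geo.autL, Bool.and_eq_true] at hl
  refine Equiv.ext fun p => M24Geo.idx_injective ?_
  rw [M24Geo.idx_permOf hl.1, geoList, List.getD_eq_getElem _ _ (by simp [M24Geo.idx_lt p]),
    List.getElem_map, List.getElem_range, (idx_shift p).2, ← (elemOf_spec ht).2, (idx_shift _).1]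

theorem ncard_fixed_conj {α : Type*} [MulAction (Equiv.Perm GolayPt) α] {X : Set α}
    (hX : ∀ g ∈ M24, ∀ x ∈ X, g • x ∈ X) {g r h : Equiv.Perm GolayPt} (hh : h ∈ M24)
    (e : g = h * r * h⁻¹) :
    {x | x ∈ X ∧ g • x = x}.ncard = {x | x ∈ X ∧ r • x = x}.ncard := by
  rw [← Set.ncard_image_of_injective {x | x ∈ X ∧ r • x = x} (MulAction.injective h)]
  congr 1
  ext x
  simp only [Set.mem_ofPred_eq, Set.mem_image]
  constructor
  · rintro ⟨hx, hgx⟩
    refine ⟨h⁻¹ • x, ⟨hX _ (inv_mem hh) x hx, ?_⟩, smul_inv_smul h x⟩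
    rw [← mul_smul, show r * h⁻¹ = h⁻¹ * g by rw [e]; group, mul_smul, hgx]
  · rintro ⟨y, ⟨hy, hry⟩, rfl⟩
    refine ⟨hX _ hh y hy, ?_⟩
    rw [← mul_smul, show g * h = h * r by rw [e]; group, mul_smul, hry]

theorem ncard_fixed_keys {α : Type*} [MulAction (Equiv.Perm GolayPt) α] {X : Set α}
    {keys : List ℕ} (dec : ℕ → α) (hall : ∀ x ∈ X, ∃ k ∈ keys, dec k = x)
    (hmem : ∀ k ∈ keys, dec k ∈ X) (hnd : keys.Nodup) (hinj : Set.InjOn dec {k | k ∈ keys})
    {g : Equiv.Perm GolayPt} {test : ℕ → Bool}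
    (htest : ∀ k ∈ keys, test k = true ↔ g • dec k = dec k) :
    {x | x ∈ X ∧ g • x = x}.ncard = keys.countP test := by
  rw [List.countP_eq_length_filter, ← List.toFinset_card_of_nodup (hnd.filter test),
    ← Set.ncard_coe_finset,
    ← (hinj.mono fun k hk => (List.mem_filter.mp (List.mem_toFinset.mp hk)).1).ncard_image]
  congr 1
  ext x
  simp only [Set.mem_ofPred_eq, List.coe_toFinset, Set.mem_image, List.mem_filter]
  constructor
  · rintro ⟨hx, hg⟩
    obtain ⟨k, hk, rfl⟩ := hall x hx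
    exact ⟨k, ⟨hk, (htest k hk).mpr hg⟩, rfl⟩
  · rintro ⟨k, ⟨hk, ht⟩, rfl⟩
    exact ⟨hmem k hk, (htest k hk).mp ht⟩

theorem fixed_octads (l : List ℕ) (hl : M24Geo.autL l = true) :
    {o | o ∈ octads ∧ M24Geo.permOf l • o = o}.ncard =
      M24Geo.octadTree.keys.countP fun k => Nat.beq (M24Geo.actF l k) k := by
  simp only [M24Geo.autL, Bool.and_eq_true] at hl
  refine ncard_fixed_keys M24Geo.ofMask M24Geo.octad_hX
    (fun k hk => M24Geo.mem_wordsOfWeight_iff.mpr
      ⟨k, List.all_eq_true.mp M24Geo.octad_keys_word k hk, rfl⟩)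
    (M24Geo.sortedB_nodup M24Geo.octad_cert.sorted)
    (fun a ha b hb h => M24Geo.ofMask_inj (M24Geo.key_lt M24Geo.octad_keys_word ha)
      (M24Geo.key_lt M24Geo.octad_keys_word hb) h) (fun k hk => ?_)
  rw [Nat.beq_eq, M24Geo.actF_eq, M24Geo.smul_ofMask hl.1]
  exact ⟨fun h => by rw [h], fun h => M24Geo.ofMask_inj (M24Geo.actL_lt hl.1 _)
    (M24Geo.key_lt M24Geo.octad_keys_word hk) h⟩

theorem fixed_dodecads (l : List ℕ) (hl : M24Geo.autL l = true) :
    {o | o ∈ dodecads ∧ M24Geo.permOf l • o = o}.ncard =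
      M24Geo.dodecadTree.keys.countP fun k => Nat.beq (M24Geo.actF l k) k := by
  simp only [M24Geo.autL, Bool.and_eq_true] at hl
  refine ncard_fixed_keys M24Geo.ofMask M24Geo.dodecad_hX
    (fun k hk => M24Geo.mem_wordsOfWeight_iff.mpr
      ⟨k, List.all_eq_true.mp M24Geo.dodecad_keys_word k hk, rfl⟩)
    (M24Geo.sortedB_nodup M24Geo.dodecad_cert.sorted)
    (fun a ha b hb h => M24Geo.ofMask_inj (M24Geo.key_lt M24Geo.dodecad_keys_word ha)
      (M24Geo.key_lt M24Geo.dodecad_keys_word hb) h) (fun k hk => ?_)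
  rw [Nat.beq_eq, M24Geo.actF_eq, M24Geo.smul_ofMask hl.1]
  exact ⟨fun h => by rw [h], fun h => M24Geo.ofMask_inj (M24Geo.actL_lt hl.1 _)
    (M24Geo.key_lt M24Geo.dodecad_keys_word hk) h⟩

theorem stepSetsF_iff (n : ℕ) {l : List ℕ} (hl : M24Geo.autL l = true) (k : ℕ) :
    M24Geo.stepSetsF n l k k = true ↔
      M24Geo.permOf l • M24Geo.decSets n k = M24Geo.decSets n k := by
  refine ⟨fun h => M24Geo.stepSetsF_sound n l k k hl h, fun h => ?_⟩
  simp only [M24Geo.autL, Bool.and_eq_true] at hl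
  have hiff : ∀ m : ℕ, m < 2 ^ 24 →
      (m ∈ M24Geo.masksOf n k ↔ M24Geo.ofMask m ∈ M24Geo.decSets n k) := fun m hm =>
    ⟨fun hm' => M24Geo.mem_decSets.mpr ⟨m, hm', rfl⟩, fun hm' => by
      obtain ⟨m', hm1, e⟩ := M24Geo.mem_decSets.mp hm'
      rwa [← M24Geo.ofMask_inj (M24Geo.masksOf_lt n k m' hm1) hm e]⟩
  simp only [M24Geo.stepSetsF, M24Geo.sameSetF, show M24Geo.actF l = M24Geo.actL l from
    funext (M24Geo.actF_eq l), Bool.and_eq_true, List.all_eq_true, M24Geo.memF_iff]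
  refine ⟨fun m hm => ?_, fun m hm => ?_⟩
  · obtain ⟨m', hm', rfl⟩ := List.mem_map.mp hm
    rw [hiff _ (M24Geo.actL_lt hl.1 _), ← M24Geo.smul_ofMask hl.1, ← h]
    exact Finset.smul_mem_smul_finset (M24Geo.mem_decSets.mpr ⟨m', hm', rfl⟩)
  · have hm24 := M24Geo.masksOf_lt n k m hm
    rw [hiff m hm24, ← h, Finset.mem_smul_finset] at hm
    obtain ⟨t, ht, e⟩ := hm
    obtain ⟨m', hm', rfl⟩ := M24Geo.mem_decSets.mp ht
    rw [M24Geo.smul_ofMask hl.1] at e
    exact List.mem_map.mpr ⟨m', hm', M24Geo.ofMask_inj (M24Geo.actL_lt hl.1 _) hm24 e⟩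

/-- The packed sets of a family given by orbit certificates, with the fixed ones counted. -/
theorem fixed_setFamily {n m root : ℕ} {X : Set (Finset (Finset GolayPt))}
    (smul_mem : ∀ g ∈ M24, ∀ x ∈ X, g • x ∈ X) {gens : List (List ℕ)}
    (K : M24Geo.StabOK n gens root) (r : Fin m → ℕ) (T : Fin m → M24Geo.OT) (v N : Fin m → ℕ)
    (hinj : Function.Injective v) (C : ∀ i, M24Geo.SubOK n gens (r i) (T i) (N i))
    (hroot : ∀ i, M24Geo.decSets n (r i) ∈ X)
    (hv : ∀ i, M24Geo.interSq (M24Geo.decSets n root) (M24Geo.decSets n (r i)) = v i)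
    (htotal : X.ncard ≤ ∑ i, N i) (l : List ℕ) (hl : M24Geo.autL l = true) :
    {x | x ∈ X ∧ M24Geo.permOf l • x = x}.ncard =
      ∑ i, (T i).keys.countP (fun k => M24Geo.stepSetsF n l k k) := by
  obtain ⟨hval, hcl⟩ := M24Geo.classes_eq smul_mem K r T v N hinj C hroot hv htotal
  let A : Fin m → Set (Finset (Finset GolayPt)) := fun i =>
    {x | x ∈ {x ∈ X | M24Geo.interSq (M24Geo.decSets n root) x = v i} ∧ M24Geo.permOf l • x = x}
  have hA : {x | x ∈ X ∧ M24Geo.permOf l • x = x} = ⋃ i, A i := by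
    ext x
    simp only [A, Set.mem_iUnion, Set.mem_ofPred_eq]
    exact ⟨fun h => by obtain ⟨i, hi⟩ := hval x h.1; exact ⟨i, ⟨h.1, hi.symm⟩, h.2⟩,
      fun ⟨i, h, h'⟩ => ⟨h.1, h'⟩⟩
  have hdisj : Pairwise (Function.onFun Disjoint A) := fun i j hij => Set.disjoint_left.mpr
    fun x hi hj => hij (hinj (hi.1.2.symm.trans hj.1.2))
  rw [hA, Set.ncard_iUnion_of_finite (fun i => Set.toFinite _) hdisj, finsum_eq_sum_of_fintype]
  refine Finset.sum_congr rfl fun i _ => ?_
  refine ncard_fixed_keys (M24Geo.decSets n) (fun x hx => ?_) (fun k hk => ?_)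
    (M24Geo.sortedB_nodup (C i).sorted)
    (fun a ha b hb h => M24Geo.decSets_injOn ((C i).canon_key ha) ((C i).canon_key hb) h)
    (fun k _ => stepSetsF_iff n hl k)
  · rw [(hcl i).1] at hx
    exact hx
  · rw [(hcl i).1]
    exact ⟨k, hk, rfl⟩

theorem fixed_sextets (l : List ℕ) (hl : M24Geo.autL l = true) :
    {S | S ∈ sextets ∧ M24Geo.permOf l • S = S}.ncard =
      ([M24Geo.sextetTree0, M24Geo.sextetTree1, M24Geo.sextetTree2, M24Geo.sextetTree3].map
        fun T => T.keys.countP fun k => M24Geo.stepSetsF 6 l k k).sum := by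
  refine (fixed_setFamily (fun _ hg _ hx => M24Geo.smul_mem_sextets hg hx) M24Geo.sextet_stabOK
    _ _ _ _ (by decide) M24Geo.sextet_subs
    (fun i => M24Geo.decSets_sextet (M24Geo.sextet_root_keys i)) M24Geo.sextet_root_vals
    (by rw [M24Geo.sextets_ncard]; decide) l hl).trans ?_
  simp [Fin.sum_univ_four, add_assoc]

theorem fixed_trios (l : List ℕ) (hl : M24Geo.autL l = true) :
    {S | S ∈ trios ∧ M24Geo.permOf l • S = S}.ncard =
      ([M24Geo.trioTree0, M24Geo.trioTree1, M24Geo.trioTree2, M24Geo.trioTree3,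
        M24Geo.trioTree4].map fun T => T.keys.countP fun k => M24Geo.stepSetsF 3 l k k).sum := by
  refine (fixed_setFamily (fun _ hg _ hx => M24Geo.smul_mem_trios hg hx) M24Geo.trio_stabOK
    _ _ _ _ (by decide) M24Geo.trio_subs
    (fun i => M24Geo.decSets_trio_of_key (M24Geo.trio_root_keys i)) M24Geo.trio_root_vals
    (by rw [M24Geo.trios_ncard]; decide) l hl).trans ?_
  simp [Fin.sum_univ_five, add_assoc]

end Cfsg.Agent.M24
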