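import Cfsg.Agent.M24.FixedCounts

/-!
The numbers of octads, dodecads, trios and sextets fixed by the elements of order 2 and 3.
-/

set_option autoImplicit false
set_option Elab.async false

namespace Cfsg.Agent.M24

open Cfsg
open scoped Pointwise

theorem reps_aut : M24Geo.autL (geoList ord3Fix6) = true ∧ M24Geo.autL (geoList ord3Fix0) = true ∧
    M24Geo.autL (geoList ord2Fix8) = true ∧ M24Geo.autL (geoList ord2Fix0) = true := by
  decide +kernel

/-- The number of fixed octads of a rep. -/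
def octFix (t : ℕ) : ℕ :=
  M24Geo.octadTree.keys.countP fun k => Nat.beq (M24Geo.actF (geoList t) k) k

/-- The number of fixed dodecads of a rep. -/
def dodFix (t : ℕ) : ℕ :=
  M24Geo.dodecadTree.keys.countP fun k => Nat.beq (M24Geo.actF (geoList t) k) k

/-- The number of fixed sextets of a rep. -/
def sexFix (t : ℕ) : ℕ :=
  ([M24Geo.sextetTree0, M24Geo.sextetTree1, M24Geo.sextetTree2, M24Geo.sextetTree3].map
    fun T => T.keys.countP fun k => M24Geo.stepSetsF 6 (geoList t) k k).sum

/-- The number of fixed trios of a rep. -/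
def trioFix (t : ℕ) : ℕ :=
  ([M24Geo.trioTree0, M24Geo.trioTree1, M24Geo.trioTree2, M24Geo.trioTree3,
    M24Geo.trioTree4].map fun T => T.keys.countP fun k => M24Geo.stepSetsF 3 (geoList t) k k).sum

theorem octFix_values : octFix ord3Fix6 = 21 ∧ octFix ord2Fix8 = 71 ∧ octFix ord2Fix0 = 15 := by
  decide +kernel

theorem dodFix_values : dodFix ord3Fix6 = 20 := by decide +kernel

theorem sexFix_three : sexFix ord3Fix6 = 16 ∧ sexFix ord3Fix0 = 7 := by decide +kernel

theorem sexFix_two : sexFix ord2Fix8 = 91 ∧ sexFix ord2Fix0 = 51 := by decide +kernel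

theorem trioFix_three : trioFix ord3Fix6 = 15 ∧ trioFix ord3Fix0 = 15 := by decide +kernel

theorem trioFix_two : trioFix ord2Fix8 = 99 ∧ trioFix ord2Fix0 = 75 := by decide +kernel

theorem ncard_octFix {t : ℕ} {g h : Equiv.Perm GolayPt} (ht : GoodTab t = true)
    (hl : M24Geo.autL (geoList t) = true) (hh : h ∈ M24) (e : g = h * elemOf t * h⁻¹) :
    {o | o ∈ octads ∧ g • o = o}.ncard = octFix t := by
  rw [ncard_fixed_conj (fun g hg _ hx => Golay.smul_mem_octads hg hx) hh e,
    elemOf_eq_permOf ht hl, fixed_octads _ hl, octFix]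

theorem ncard_dodFix {t : ℕ} {g h : Equiv.Perm GolayPt} (ht : GoodTab t = true)
    (hl : M24Geo.autL (geoList t) = true) (hh : h ∈ M24) (e : g = h * elemOf t * h⁻¹) :
    {o | o ∈ dodecads ∧ g • o = o}.ncard = dodFix t := by
  rw [ncard_fixed_conj (fun g hg _ hx => Golay.smul_mem_dodecads hg hx) hh e,
    elemOf_eq_permOf ht hl, fixed_dodecads _ hl, dodFix]

theorem ncard_sexFix {t : ℕ} {g h : Equiv.Perm GolayPt} (ht : GoodTab t = true)
    (hl : M24Geo.autL (geoList t) = true) (hh : h ∈ M24) (e : g = h * elemOf t * h⁻¹) :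
    {S | S ∈ sextets ∧ g • S = S}.ncard = sexFix t := by
  rw [ncard_fixed_conj (fun g hg _ hx => M24Geo.smul_mem_sextets hg hx) hh e,
    elemOf_eq_permOf ht hl, fixed_sextets _ hl, sexFix]

theorem ncard_trioFix {t : ℕ} {g h : Equiv.Perm GolayPt} (ht : GoodTab t = true)
    (hl : M24Geo.autL (geoList t) = true) (hh : h ∈ M24) (e : g = h * elemOf t * h⁻¹) :
    {T | T ∈ trios ∧ g • T = T}.ncard = trioFix t := by
  rw [ncard_fixed_conj (fun g hg _ hx => M24Geo.smul_mem_trios hg hx) hh e,
    elemOf_eq_permOf ht hl, fixed_trios _ hl, trioFix]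

end Cfsg.Agent.M24
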