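import Cfsg.Agent.M24.PairStab
import Cfsg.Agent.M24.SixPoints

/-!
The symmetric group of degree 6 as the stabiliser of two octads meeting in two points, and as the
stabiliser of a hexad in a dodecad stabiliser.
-/

set_option autoImplicit false

namespace Cfsg.Agent.M24

open Cfsg Cfsg.Agent.Golay
open scoped Pointwise

theorem octPair_mem : octPair ∈ octads := by
  refine mem_octads_iff.mpr ⟨?_, ?_⟩
  · have : enc (8499969 % 4096) = 8499969 := by decide +kernel
    rw [octPair, ← this]
    exact bitSet_enc_mem _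
  · rw [octPair, card_bitSet]; decide +kernel

theorem oct0_inter_octPair : (oct0 ∩ octPair).card = 2 := by
  rw [oct0, octPair, ← bitSet_and, card_bitSet]
  decide +kernel

theorem smul_sdiff_two {g : Equiv.Perm GolayPt} {o o' : Finset GolayPt} (h : g • o = o)
    (h' : g • o' = o') (p : GolayPt) : g p ∈ o \ o' ↔ p ∈ o \ o' := by
  rw [Finset.mem_sdiff, Finset.mem_sdiff, apply_mem_octad_iff h, apply_mem_octad_iff h']

/-- Restriction to `o \ o'` of the stabiliser of two sets. -/
def restrictDiff (o o' : Finset GolayPt) :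
    ↥(MulAction.stabilizer M24 o ⊓ MulAction.stabilizer M24 o') →* Equiv.Perm ↥(o \ o') where
  toFun g := ((g : M24) : Equiv.Perm GolayPt).subtypePerm fun x =>
    smul_sdiff_two (MulAction.mem_stabilizer_iff.mp g.2.1) (MulAction.mem_stabilizer_iff.mp g.2.2) x
  map_one' := Equiv.ext fun _ => rfl
  map_mul' _ _ := Equiv.ext fun _ => rfl

theorem exists_iso_two_octads {o o' : Finset GolayPt} (ho : o ∈ octads) (ho' : o' ∈ octads)
    (h2 : (o ∩ o').card = 2) :
    Nonempty (↥(MulAction.stabilizer M24 o ⊓ MulAction.stabilizer M24 o') ≃*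
      Equiv.Perm (Fin 6)) := by
  have hc : (o \ o').card = 6 := by
    have := Finset.card_sdiff_add_card_inter o o'
    have := (mem_octads_iff.mp ho).2
    omega
  have hinj : Function.Injective (restrictDiff o o') := by
    rw [injective_iff_map_eq_one]
    intro g hg
    have hgm : ((g : M24) : Equiv.Perm GolayPt) ∈ M24 := (g : M24).2
    have hfix : ∀ p ∈ o, ((g : M24) : Equiv.Perm GolayPt) p = p := fun p hp =>
      fix_octad_of_six hgm ho Finset.sdiff_subset hc.ge
        (fun q hq => congrArg Subtype.val (Equiv.ext_iff.mp hg ⟨q, hq⟩)) hp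
    obtain ⟨a, ha, hao⟩ := exists_octad_to_oct0 ho
    obtain ⟨b, hb, hbo, hbp⟩ := M24Geo.octadFamily.stab_trans (x := oct0) (y := a • o')
      (z := octPair) oct0_mem (smul_mem_octads ha ho') octPair_mem (by
        show (oct0 ∩ a • o').card = (oct0 ∩ octPair).card
        rw [← hao, M24Geo.inter_card_smul, h2, hao, oct0_inter_octPair])
    have hko : (b * a) • o = oct0 := by rw [mul_smul, hao, hbo]
    have hkp : (b * a) • o' = octPair := by rw [mul_smul, hbp]
    have h1 : b * a * ((g : M24) : Equiv.Perm GolayPt) * (b * a)⁻¹ = 1 := by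
      refine eq_one_of_six_of_octPair (mem_chainStab.mpr
        ⟨mul_mem (mul_mem (mul_mem hb ha) hgm) (inv_mem (mul_mem hb ha)), fun j hj => ?_⟩) ?_
      · refine (fix_iff_conj (Equiv.apply_symm_apply _ _)).mp (hfix _ ?_)
        rw [← apply_mem_octad_iff hko, Equiv.apply_symm_apply]
        exact (by decide +kernel : ∀ j < 6, basePt j ∈ oct0) j hj
      · rw [← hkp, mul_smul, mul_smul, inv_smul_smul]
        congr 1
        exact MulAction.mem_stabilizer_iff.mp g.2.2
    exact Subtype.ext (Subtype.ext (conj_eq_one_iff.mp h1))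
  have hbij : Function.Bijective (restrictDiff o o') :=
    (Nat.bijective_iff_injective_and_card _).mpr ⟨hinj, by
      rw [(card_stab_two_octads_values ho ho').2.2 h2, Nat.card_perm,
        Nat.card_eq_fintype_card (α := ↥(o \ o')), Fintype.card_coe, hc]
      rfl⟩
  exact ⟨(MulEquiv.ofBijective _ hbij).trans
    (Equiv.permCongrHom (Finset.equivFinOfCardEq hc))⟩

theorem hexad_kernel {d C : Finset GolayPt} (hd : d ∈ dodecads) (hCd : C ⊆ d) (h6 : C.card = 6)
    {g : ↥M24} (hg : g ∈ MulAction.stabilizer M24 d)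
    (hfix : ∀ p ∈ C, (g : Equiv.Perm GolayPt) p = p) : g = 1 :=
  Subtype.ext (eq_one_of_fix_five hd g.2 (MulAction.mem_stabilizer_iff.mp hg) hCd (by omega) hfix)

/-- Restriction to the hexad. -/
def restrictHexad (d C : Finset GolayPt) :
    ↥(MulAction.stabilizer M24 d ⊓ MulAction.stabilizer M24 C) →* Equiv.Perm ↥C where
  toFun g := ((g : M24) : Equiv.Perm GolayPt).subtypePerm fun x =>
    apply_mem_octad_iff (MulAction.mem_stabilizer_iff.mp g.2.2) x
  map_one' := Equiv.ext fun _ => rfl
  map_mul' _ _ := Equiv.ext fun _ => rfl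

theorem exists_iso_hexad {d C : Finset GolayPt} (hd : d ∈ dodecads) (hC : C ∈ hexadsOn d) :
    Nonempty (↥(MulAction.stabilizer M24 d ⊓ MulAction.stabilizer M24 C) ≃*
      Equiv.Perm (Fin 6)) := by
  obtain ⟨hc, o, ho, hoC⟩ := hC
  have hCd : C ⊆ d := hoC ▸ Finset.inter_subset_right
  have hCo : C ⊆ o := hoC ▸ Finset.inter_subset_left
  have hinj : Function.Injective (restrictHexad d C) := by
    rw [injective_iff_map_eq_one]
    intro g hg
    exact Subtype.ext (hexad_kernel hd hCd hc g.2.1
      fun p hp => congrArg Subtype.val (Equiv.ext_iff.mp hg ⟨p, hp⟩))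
  have hsurj : Function.Surjective (restrictHexad d C) := by
    intro σ
    let e := C.equivFinOfCardEq hc
    let x : Fin 5 ↪ GolayPt := Fin.castSuccEmb.trans (listSix hc)
    let y : Fin 5 ↪ GolayPt := Fin.castSuccEmb.trans
      ((e.symm.trans σ).toEmbedding.trans (Function.Embedding.subtype _))
    obtain ⟨g, hg, -⟩ := existsUnique_dodecad_five hd x y
      (fun i => hCd (listSix_mem hc _)) (fun i => hCd (σ _).2)
    set γ := ((g : M24) : Equiv.Perm GolayPt) with hγ
    have hgd : γ • d = d := g.2
    have hgo : γ • o = o := by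
      refine octad_eq_of_five (smul_mem_octads (g : M24).2 ho) ho ?_
      have hsub : Finset.univ.map y ⊆ γ • o ∩ o := by
        intro p hp
        obtain ⟨i, -, rfl⟩ := Finset.mem_map.mp hp
        exact Finset.mem_inter.mpr
          ⟨hg i ▸ Finset.smul_mem_smul_finset (hCo (listSix_mem hc _)), hCo (σ _).2⟩
      simpa using Finset.card_le_card hsub
    have hgC : γ • C = C := by rw [← hoC, Finset.smul_finset_inter, hgo, hgd]
    refine ⟨⟨(g : M24), g.2, MulAction.mem_stabilizer_iff.mpr hgC⟩, ?_⟩
    set τ := restrictHexad d C ⟨(g : M24), g.2, MulAction.mem_stabilizer_iff.mpr hgC⟩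
    have key : ∀ p : ↥C, e p ≠ Fin.last 5 → τ p = σ p := by
      intro p hp
      obtain ⟨i, hi⟩ := Fin.exists_castSucc_eq.mpr hp
      apply Subtype.ext
      have hx : x i = (p : GolayPt) := by simp [x, listSix, hi, e]
      have hy : y i = (σ p : GolayPt) := by simp [y, hi]
      show γ p = σ p
      rw [← hx, ← hy]
      exact hg i
    refine Equiv.ext fun p => ?_
    by_cases hp : e p = Fin.last 5
    · by_contra hne
      obtain ⟨q, hq⟩ := σ.surjective (τ p)
      have hqp : q ≠ p := fun h => hne (by rw [← hq, h])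
      have hq' : e q ≠ Fin.last 5 := fun h => hqp (e.injective (h.trans hp.symm))
      exact hqp (τ.injective ((key q hq').trans hq))
    · exact key p hp
  exact ⟨(MulEquiv.ofBijective _ ⟨hinj, hsurj⟩).trans
    (Equiv.permCongrHom (Finset.equivFinOfCardEq hc))⟩

end Cfsg.Agent.M24
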