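import Cfsg.Agent.M24.TwistCard
import Cfsg.Agent.M24.BlockData
import Mathlib.GroupTheory.PGroup

/-!
Each involution centralizer in M24 has a normal self-centralizing 2-subgroup: the pointwise
stabiliser of the fixed octad, or the stabiliser of the sextet.
-/

set_option autoImplicit false

namespace Cfsg.Agent.M24

open Cfsg Cfsg.Agent.Golay BlockData

/-- `Q` is a normal self-centralizing elementary abelian 2-subgroup of the centralizer of `z`,
acting trivially on the fixed points of `z`. -/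
def Core (z : Equiv.Perm GolayPt) (Q : Subgroup (Equiv.Perm GolayPt)) : Prop :=
  (∀ x ∈ Q, x ∈ M24 ∧ x * z = z * x ∧ x * x = 1) ∧
  (∀ c ∈ M24, c * z = z * c → ∀ x ∈ Q, c * x * c⁻¹ ∈ Q) ∧
  (∀ x ∈ M24, x * z = z * x → (∀ q ∈ Q, x * q = q * x) → x ∈ Q) ∧
  (∀ p, z p = p → ∀ x ∈ Q, x p = p)

theorem Core.conj {z : Equiv.Perm GolayPt} {Q : Subgroup (Equiv.Perm GolayPt)} (h : Core z Q)
    {k : Equiv.Perm GolayPt} (hk : k ∈ M24) :
    Core (k * z * k⁻¹) (Q.map (MulAut.conj k).toMonoidHom) := by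
  obtain ⟨h1, h2, h3, h4⟩ := h
  have back : ∀ c, c * (k * z * k⁻¹) = (k * z * k⁻¹) * c →
      (k⁻¹ * c * k) * z = z * (k⁻¹ * c * k) := fun c hc => by
    have := congrArg (fun u => k⁻¹ * u * k) hc
    simpa [mul_assoc] using this
  refine ⟨?_, ?_, ?_, ?_⟩
  · rintro _ ⟨x, hx, rfl⟩
    obtain ⟨hxm, hxz, hxx⟩ := h1 x hx
    simp only [MulEquiv.coe_toMonoidHom, MulAut.conj_apply]
    refine ⟨mul_mem (mul_mem hk hxm) (inv_mem hk), ?_, ?_⟩
    · rw [show k * x * k⁻¹ * (k * z * k⁻¹) = k * (x * z) * k⁻¹ by group, hxz]; group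
    · rw [show k * x * k⁻¹ * (k * x * k⁻¹) = k * (x * x) * k⁻¹ by group, hxx]; group
  · rintro c hc hcz _ ⟨x, hx, rfl⟩
    refine ⟨_, h2 (k⁻¹ * c * k) (mul_mem (mul_mem (inv_mem hk) hc) hk) (back c hcz) x hx, ?_⟩
    simp only [MulEquiv.coe_toMonoidHom, MulAut.conj_apply]
    group
  · intro c hc hcz hq
    refine ⟨k⁻¹ * c * k, h3 _ (mul_mem (mul_mem (inv_mem hk) hc) hk) (back c hcz) fun q hqQ => ?_,
      by simp [mul_assoc]⟩
    have := hq _ ⟨q, hqQ, rfl⟩
    simp only [MulEquiv.coe_toMonoidHom, MulAut.conj_apply] at this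
    rw [show k⁻¹ * c * k * q = k⁻¹ * (c * (k * q * k⁻¹)) * k by group, this]
    group
  · rintro p hp _ ⟨x, hx, rfl⟩
    simp only [MulEquiv.coe_toMonoidHom, MulAut.conj_apply, Equiv.Perm.mul_apply,
      Equiv.Perm.coe_inv] at hp ⊢
    rw [h4 (k.symm p) (k.eq_symm_apply.mpr hp) x hx, Equiv.apply_symm_apply]

/-- Test that a table squares to the identity. -/
def sqTest (tbl : List ℕ) : Bool :=
  (List.range 24).all fun i => Nat.beq (tbl.getD (tbl.getD i 0) 0) i

/-- Test that a table permutes the sets. -/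
def permTest (S : List (List ℕ)) (tbl : List ℕ) : Bool :=
  S.all fun T => S.any fun T' => (List.range 24).all fun i =>
    memPos (tbl.getD i 0) T' == memPos i T

theorem sqTest_spec {x : Equiv.Perm GolayPt} (h : sqTest (tableOf x) = true) : x * x = 1 := by
  simp only [sqTest, List.all_eq_true, List.mem_range, Nat.beq_eq] at h
  refine Equiv.ext fun p => ptIdx_injective ?_
  have := h (ptIdx p) (ptIdx_lt p)
  rw [tableOf_getD x (ptIdx_lt p), ptOf_ptIdx, tableOf_getD x (ptIdx_lt _), ptOf_ptIdx] at this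
  exact this

/-- `c` permutes the sets of positions. -/
def PermSets (S : List (List ℕ)) (c : Equiv.Perm GolayPt) : Prop :=
  ∀ T ∈ S, ∃ T' ∈ S, ∀ p, ptIdx (c p) ∈ T' ↔ ptIdx p ∈ T

theorem beq_memPos_iff {i j : ℕ} {T U : List ℕ} :
    (memPos i T == memPos j U) = true ↔ (i ∈ T ↔ j ∈ U) := by
  rw [beq_iff_eq, ← memPos_iff (i := i), ← memPos_iff (i := j), Bool.eq_iff_iff]

theorem permTest_spec {S : List (List ℕ)} {x : Equiv.Perm GolayPt}
    (h : permTest S (tableOf x) = true) : PermSets S x := by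
  simp only [permTest, List.all_eq_true, List.any_eq_true, List.mem_range] at h
  intro T hT
  obtain ⟨T', hT', h'⟩ := h T hT
  refine ⟨T', hT', fun p => ?_⟩
  have := h' (ptIdx p) (ptIdx_lt p)
  rw [tableOf_getD x (ptIdx_lt p), ptOf_ptIdx, beq_memPos_iff] at this
  exact this

theorem PermSets.mul {S : List (List ℕ)} {a b : Equiv.Perm GolayPt} (ha : PermSets S a)
    (hb : PermSets S b) : PermSets S (a * b) := by
  intro T hT
  obtain ⟨T', hT', h⟩ := hb T hT
  obtain ⟨T'', hT'', h'⟩ := ha T' hT'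
  exact ⟨T'', hT'', fun p => (h' (b p)).trans (h p)⟩

theorem conj_mem_setStab {S : List (List ℕ)} {c x : Equiv.Perm GolayPt} (hc : PermSets S c⁻¹)
    (hx : x ∈ setStab S) : c * x * c⁻¹ ∈ setStab S := by
  intro p T hT
  obtain ⟨T', hT', h⟩ := hc T hT
  have h1 := hx (c⁻¹ p) T' hT'
  rw [h p] at h1
  have h2 := h ((c * x * c⁻¹) p)
  rw [show c⁻¹ ((c * x * c⁻¹) p) = x (c⁻¹ p) by simp] at h2
  exact h2.symm.trans h1

theorem fix_iff {L : List ℕ} {x : Equiv.Perm GolayPt} :
    x ∈ setStab (L.map fun i => [i]) ↔ ∀ p, ptIdx p ∈ L → x p = p := by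
  constructor
  · intro h p hp
    exact ptIdx_injective (List.mem_singleton.1 ((h p [ptIdx p]
      (List.mem_map_of_mem hp)).2 (List.mem_singleton.2 rfl)))
  · intro h p T hT
    obtain ⟨i, hi, rfl⟩ := List.mem_map.1 hT
    rw [List.mem_singleton, List.mem_singleton]
    constructor
    · intro he
      have hq := h (x p) (he ▸ hi)
      rwa [x.injective hq] at he
    · intro he
      rw [h p (he ▸ hi)]
      exact he

theorem commute_iff_tw {x z : Equiv.Perm GolayPt} : x * z = z ^ 1 * x ↔ x * z = z * x := by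
  rw [pow_one]

/-- A coded element of the core: in M24, commuting with the coded `tz`, stabilising the sets. -/
def memCheck (S : List (List ℕ)) (tz w : ℕ) (rel : List (List (ℕ × ℕ × ℕ × ℕ))) : Bool :=
  GoodTab w && fullTw tz 1 (tblOf (papp w)) && fullSets S (tblOf (papp w)) && relsOK w 1 rel

theorem memCheck_spec {S : List (List ℕ)} {tz w : ℕ} {rel : List (List (ℕ × ℕ × ℕ × ℕ))}
    {z : Equiv.Perm GolayPt} (hz : Rep tz z) (h : memCheck S tz w rel = true) :
    ∃ g ∈ M24, Rep w g ∧ g * z = z * g ∧ g ∈ setStab S ∧ relsOK w 1 rel = true := by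
  simp only [memCheck, Bool.and_eq_true] at h
  obtain ⟨⟨⟨hg, hc⟩, hS⟩, hrel⟩ := h
  obtain ⟨g, hgm, hrep⟩ := rep_of_good hg
  refine ⟨g, hgm, hrep, ?_, (fullSets_iff S g).1 (by rwa [tableOf_eq hrep]), hrel⟩
  refine commute_iff_tw.1 (((tests_tw (t := 1) (rel := []) hz (by rfl)).iff_full g hgm).2 ?_)
  rwa [tableOf_eq hrep]

theorem fix_eight : ∀ i < 24, Nat.beq (papp ord2Fix8 i) i = decide (i ∈ fixList) := by
  decide +kernel

theorem fixSets_eq : fixSets = fixList.map fun i => [i] := by decide +kernel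

theorem octMap_ok : (GoodTab octMap && octSets.all fun T => fixList.any fun i =>
    T == (List.range 24).filter fun j => Nat.beq (papp octMap j) i) = true := by decide +kernel

theorem relEight_ok : relsOK ord2Fix8 1 relEight = true := by decide +kernel

theorem relZero_ok : relsOK ord2Fix0 1 relZero = true := by decide +kernel

theorem sq_oct : searchA (fun k f => okSets octSets (baseOf k f))
    (fun f => fullSets octSets (tblOf f)) (fun f => sqTest (tblOf f)) transTab 0 (act []) = true := by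
  decide +kernel

theorem cent_eight : searchA
    (fun k f => okC relEight k f && (okC wEightRel0 k f && (okC wEightRel1 k f && okC wEightRel2 k f)))
    (fun f => fullTw ord2Fix8 1 (tblOf f) && (fullTw wEight0 1 (tblOf f) &&
      (fullTw wEight1 1 (tblOf f) && fullTw wEight2 1 (tblOf f))))
    (fun f => fullSets fixSets (tblOf f)) transTab 0 (act []) = true := by decide +kernel

theorem sq_zero : searchA (fun k f => okC relZero k f && okSets sextet (baseOf k f))
    (fun f => fullTw ord2Fix0 1 (tblOf f) && fullSets sextet (tblOf f))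
    (fun f => sqTest (tblOf f)) transTab 0 (act []) = true := by decide +kernel

theorem cent_zero : searchA
    (fun k f => okC relZero k f && (okC wZeroRel0 k f && (okC wZeroRel1 k f &&
      (okC wZeroRel2 k f && okC wZeroRel3 k f))))
    (fun f => fullTw ord2Fix0 1 (tblOf f) && (fullTw wZero0 1 (tblOf f) &&
      (fullTw wZero1 1 (tblOf f) && (fullTw wZero2 1 (tblOf f) && fullTw wZero3 1 (tblOf f)))))
    (fun f => fullSets sextet (tblOf f)) transTab 0 (act []) = true := by decide +kernel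

theorem perm_zero : searchA (fun k f => okC relZero k f && okSets [[23]] (baseOf k f))
    (fun f => fullTw ord2Fix0 1 (tblOf f) && fullSets [[23]] (tblOf f))
    (fun f => permTest sextet (tblOf f)) transTab 0 (act []) = true := by decide +kernel

theorem movers_ok : (List.range 24).all (fun y => movers.any fun t =>
    GoodTab t && fullTw ord2Fix0 1 (tblOf (papp t)) && permTest sextet (tblOf (papp t)) &&
      Nat.beq (papp t 23) y) = true := by decide +kernel

theorem wEight_ok : (memCheck fixSets ord2Fix8 wEight0 wEightRel0 &&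
    (memCheck fixSets ord2Fix8 wEight1 wEightRel1 && memCheck fixSets ord2Fix8 wEight2 wEightRel2)) =
      true := by
  decide +kernel

theorem wZero_ok : (memCheck sextet ord2Fix0 wZero0 wZeroRel0 &&
    (memCheck sextet ord2Fix0 wZero1 wZeroRel1 && (memCheck sextet ord2Fix0 wZero2 wZeroRel2 &&
      memCheck sextet ord2Fix0 wZero3 wZeroRel3))) = true := by
  decide +kernel

theorem core_eight : ∃ Q, Core (elemOf ord2Fix8) Q := by
  obtain ⟨hzm, hz⟩ := elemOf_spec (reps_good ord2Fix8 (by simp))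
  set z := elemOf ord2Fix8
  refine ⟨M24 ⊓ Subgroup.centralizer {z} ⊓ setStab fixSets, ?_, ?_, ?_, ?_⟩
  · rintro x ⟨⟨hxm, hxz⟩, hxS⟩
    replace hxS : x ∈ setStab fixSets := hxS
    replace hxm : x ∈ M24 := hxm
    refine ⟨hxm, Subgroup.mem_centralizer_singleton_iff.1 hxz, ?_⟩
    obtain ⟨hgood, hmap⟩ := Bool.and_eq_true _ _ ▸ octMap_ok
    obtain ⟨k, hk, hrep⟩ := rep_of_good hgood
    simp only [List.all_eq_true, List.any_eq_true, beq_iff_eq] at hmap
    have hy : k⁻¹ * x * k ∈ setStab octSets := by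
      rw [fixSets_eq, fix_iff] at hxS
      intro p T hT
      obtain ⟨i, hi, rfl⟩ := hmap T hT
      simp only [List.mem_filter, List.mem_range, Nat.beq_eq, ptIdx_lt, true_and]
      rw [← hrep, ← hrep]
      rw [show k ((k⁻¹ * x * k) p) = x (k p) by simp]
      constructor
      · intro h
        have hq := hxS _ (h ▸ hi)
        rwa [x.injective hq] at h
      · intro h
        rwa [hxS _ (h ▸ hi)]
    have hsq := sqTest_spec (forall_of_tests (tests_sets octSets) (fun _ _ => rfl) sq_oct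
      (mul_mem (mul_mem (inv_mem hk) hxm) hk) hy)
    rw [show x * x = k * ((k⁻¹ * x * k) * (k⁻¹ * x * k)) * k⁻¹ by group, hsq]
    group
  · intro c hc hcz x hx
    obtain ⟨⟨hxm, hxz⟩, hxS⟩ := hx
    replace hxm : x ∈ M24 := hxm
    have hxz' := Subgroup.mem_centralizer_singleton_iff.1 hxz
    refine ⟨⟨(mul_mem (mul_mem hc hxm) (inv_mem hc) : c * x * c⁻¹ ∈ M24), Subgroup.mem_centralizer_singleton_iff.2 ?_⟩, ?_⟩
    · exact ((show Commute c z from hcz).mul_left hxz').mul_left (show Commute c z from hcz).inv_left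
    · refine conj_mem_setStab (fun T hT => ?_) hxS
      rw [fixSets_eq, List.mem_map] at hT
      obtain ⟨i, hi, rfl⟩ := hT
      have hi24 : i < 24 := (by decide +kernel : ∀ i ∈ fixList, i < 24) i hi
      refine ⟨[ptIdx (c⁻¹ (ptOf i))], ?_, fun p => ?_⟩
      · rw [fixSets_eq]
        refine List.mem_map_of_mem ?_
        have h0 : z (ptOf i) = ptOf i := by
          refine ptIdx_injective ?_
          rw [hz, ptIdx_ptOf i hi24]
          exact Nat.eq_of_beq_eq_true ((fix_eight i hi24).trans (by simpa using hi))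
        have h1 : z (c⁻¹ (ptOf i)) = c⁻¹ (ptOf i) := by
          rw [← Equiv.Perm.mul_apply, ← (show Commute c z from hcz).inv_left.eq,
            Equiv.Perm.mul_apply, h0]
        have h2 := fix_eight _ (ptIdx_lt (c⁻¹ (ptOf i)))
        rw [← hz, h1, Nat.beq_refl] at h2
        exact of_decide_eq_true h2.symm
      · rw [List.mem_singleton, List.mem_singleton, ptIdx_injective.eq_iff, c⁻¹.injective.eq_iff]
        exact ⟨fun h => by rw [h, ptIdx_ptOf i hi24], fun h => by rw [← h, ptOf_ptIdx]⟩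
  · intro x hxm hxz hq
    refine ⟨⟨hxm, Subgroup.mem_centralizer_singleton_iff.2 hxz⟩, ?_⟩
    obtain ⟨h0, h1, h2⟩ : _ ∧ _ ∧ _ := by simpa only [Bool.and_eq_true] using wEight_ok
    obtain ⟨w0, hw0, r0, c0, s0, e0⟩ := memCheck_spec hz h0
    obtain ⟨w1, hw1, r1, c1, s1, e1⟩ := memCheck_spec hz h1
    obtain ⟨w2, hw2, r2, c2, s2, e2⟩ := memCheck_spec hz h2
    have hmem : ∀ w, w ∈ M24 → w * z = z * w → w ∈ setStab fixSets → x * w = w ^ 1 * x :=
      fun w a b c => commute_iff_tw.2 (hq w ⟨⟨a, Subgroup.mem_centralizer_singleton_iff.2 b⟩, c⟩)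
    exact (fullSets_iff _ _).1 (forall_of_tests
      ((tests_tw hz 1 relEight_ok).and ((tests_tw r0 1 e0).and ((tests_tw r1 1 e1).and
        (tests_tw r2 1 e2))))
      (fun k f => by rw [okTw_baseOf relEight_ok, okTw_baseOf e0, okTw_baseOf e1, okTw_baseOf e2])
      cent_eight hxm ⟨commute_iff_tw.2 hxz, hmem _ hw0 c0 s0, hmem _ hw1 c1 s1, hmem _ hw2 c2 s2⟩)
  · rintro p hp x ⟨-, hxS⟩
    replace hxS : x ∈ setStab fixSets := hxS
    rw [fixSets_eq, fix_iff] at hxS
    refine hxS p ?_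
    have h2 := fix_eight _ (ptIdx_lt p)
    rw [← hz, hp, Nat.beq_refl] at h2
    exact of_decide_eq_true h2.symm

theorem perm_of_commute {z c : Equiv.Perm GolayPt} (hz : Rep ord2Fix0 z) (hc : c ∈ M24)
    (hcz : c * z = z * c) : PermSets sextet c := by
  have h := (List.all_eq_true.1 movers_ok) (ptIdx (c none)) (List.mem_range.2 (ptIdx_lt _))
  simp only [List.any_eq_true, Bool.and_eq_true, Nat.beq_eq] at h
  obtain ⟨t, -, ⟨⟨hgood, hcom⟩, hperm⟩, ht⟩ := h
  obtain ⟨a, ha, hrep⟩ := rep_of_good hgood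
  rw [← tableOf_eq hrep] at hcom hperm
  have haz : a * z = z * a :=
    commute_iff_tw.1 (((tests_tw (t := 1) (rel := []) hz (by rfl)).iff_full a ha).2 hcom)
  have hb : a⁻¹ * c ∈ setStab [[23]] := by
    have hfix : (a⁻¹ * c) none = none := by
      rw [Equiv.Perm.mul_apply, Equiv.Perm.inv_eq_iff_eq]
      exact ptIdx_injective (ht.symm.trans (hrep none).symm)
    have hone : ([[23]] : List (List ℕ)) = [ptIdx none].map fun i => [i] := by decide
    rw [hone, fix_iff]
    intro p hp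
    rwa [ptIdx_injective (List.mem_singleton.1 hp)]
  have hbz : (a⁻¹ * c) * z = z * (a⁻¹ * c) :=
    ((show Commute a z from haz).inv_left.mul_left hcz).eq
  have := permTest_spec (forall_of_tests ((tests_tw hz 1 relZero_ok).and (tests_sets [[23]]))
    (fun k f => by rw [okTw_baseOf relZero_ok]) perm_zero (mul_mem (inv_mem ha) hc)
    ⟨commute_iff_tw.2 hbz, hb⟩)
  simpa using (permTest_spec hperm).mul this

theorem core_zero : ∃ Q, Core (elemOf ord2Fix0) Q := by
  obtain ⟨hzm, hz⟩ := elemOf_spec (reps_good ord2Fix0 (by simp))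
  set z := elemOf ord2Fix0
  refine ⟨M24 ⊓ Subgroup.centralizer {z} ⊓ setStab sextet, ?_, ?_, ?_, ?_⟩
  · rintro x ⟨⟨hxm, hxz⟩, hxS⟩
    replace hxS : x ∈ setStab sextet := hxS
    replace hxm : x ∈ M24 := hxm
    have hxz' := Subgroup.mem_centralizer_singleton_iff.1 hxz
    exact ⟨hxm, hxz', sqTest_spec (forall_of_tests
      ((tests_tw hz 1 relZero_ok).and (tests_sets sextet))
      (fun k f => by rw [okTw_baseOf relZero_ok]) sq_zero hxm ⟨commute_iff_tw.2 hxz', hxS⟩)⟩
  · intro c hc hcz x hx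
    obtain ⟨⟨hxm, hxz⟩, hxS⟩ := hx
    replace hxm : x ∈ M24 := hxm
    have hxz' := Subgroup.mem_centralizer_singleton_iff.1 hxz
    refine ⟨⟨(mul_mem (mul_mem hc hxm) (inv_mem hc) : c * x * c⁻¹ ∈ M24), Subgroup.mem_centralizer_singleton_iff.2
      (((show Commute c z from hcz).mul_left hxz').mul_left
        (show Commute c z from hcz).inv_left)⟩,
      conj_mem_setStab (perm_of_commute hz (inv_mem hc) (show Commute c z from hcz).inv_left.eq)
        hxS⟩
  · intro x hxm hxz hq
    refine ⟨⟨hxm, Subgroup.mem_centralizer_singleton_iff.2 hxz⟩, ?_⟩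
    obtain ⟨h0, h1, h2, h3⟩ : _ ∧ _ ∧ _ ∧ _ := by simpa only [Bool.and_eq_true] using wZero_ok
    obtain ⟨w0, hw0, r0, c0, s0, e0⟩ := memCheck_spec hz h0
    obtain ⟨w1, hw1, r1, c1, s1, e1⟩ := memCheck_spec hz h1
    obtain ⟨w2, hw2, r2, c2, s2, e2⟩ := memCheck_spec hz h2
    obtain ⟨w3, hw3, r3, c3, s3, e3⟩ := memCheck_spec hz h3
    have hmem : ∀ w, w ∈ M24 → w * z = z * w → w ∈ setStab sextet → x * w = w ^ 1 * x :=
      fun w a b c => commute_iff_tw.2 (hq w ⟨⟨a, Subgroup.mem_centralizer_singleton_iff.2 b⟩, c⟩)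
    exact (fullSets_iff _ _).1 (forall_of_tests
      ((tests_tw hz 1 relZero_ok).and ((tests_tw r0 1 e0).and ((tests_tw r1 1 e1).and
        ((tests_tw r2 1 e2).and (tests_tw r3 1 e3)))))
      (fun k f => by rw [okTw_baseOf relZero_ok, okTw_baseOf e0, okTw_baseOf e1, okTw_baseOf e2,
        okTw_baseOf e3])
      cent_zero hxm ⟨commute_iff_tw.2 hxz, hmem _ hw0 c0 s0, hmem _ hw1 c1 s1, hmem _ hw2 c2 s2,
        hmem _ hw3 c3 s3⟩)
  · intro p hp
    exfalso
    have h0 := (by decide +kernel : ∀ i < 24, Nat.beq (papp ord2Fix0 i) i = false) _ (ptIdx_lt p)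
    rw [← hz, hp, Nat.beq_refl] at h0
    exact Bool.noConfusion h0

/-- Every involution centralizer of M24 has a core. -/
theorem exists_core {g : Equiv.Perm GolayPt} (hg : g ∈ M24) (h2 : orderOf g = 2) :
    ∃ Q, Core g Q := by
  obtain ⟨h, hh, e | e⟩ := order_two_cases hg h2
  · obtain ⟨Q, hQ⟩ := core_eight
    exact ⟨_, e ▸ hQ.conj hh⟩
  · obtain ⟨Q, hQ⟩ := core_zero
    exact ⟨_, e ▸ hQ.conj hh⟩

end Cfsg.Agent.M24
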