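import Cfsg.Agent.M24.Classes

/-!
Subgroups of order 3 of M24: fixed point sets and conjugacy.
-/

set_option autoImplicit false

namespace Cfsg.Agent.M24

open Cfsg
open scoped Pointwise

theorem orderOf_elemOf {t : ℕ} {n : ℕ} [hn : Fact n.Prime] (ht : GoodTab t = true)
    (h1 : powOne n (papp t) = true) (hne : fixCount t ≠ 24) : orderOf (elemOf t) = n := by
  obtain ⟨hm, hr⟩ := elemOf_spec ht
  have hpow : elemOf t ^ n = 1 := by
    rw [← powOne_iff hm n, ← h1]
    refine powOne_congr (fun i hi => ?_) (fun i _ => posFun_lt _ i) n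
    rw [posFun, hr, ptIdx_ptOf i hi]
  refine orderOf_eq_prime hpow fun h => hne ?_
  rw [← fixCount_eq ht, h]
  simp [Golay.card_golayPt]

theorem order_rep_three : orderOf (elemOf ord3Fix6) = 3 ∧ orderOf (elemOf ord3Fix0) = 3 := by
  haveI : Fact (Nat.Prime 3) := ⟨Nat.prime_three⟩
  exact ⟨orderOf_elemOf (reps_good _ (by simp)) (by decide +kernel) (by decide +kernel),
    orderOf_elemOf (reps_good _ (by simp)) (by decide +kernel) (by decide +kernel)⟩

theorem order_rep_two : orderOf (elemOf ord2Fix8) = 2 ∧ orderOf (elemOf ord2Fix0) = 2 := by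
  haveI : Fact (Nat.Prime 2) := ⟨Nat.prime_two⟩
  exact ⟨orderOf_elemOf (reps_good _ (by simp)) (by decide +kernel) (by decide +kernel),
    orderOf_elemOf (reps_good _ (by simp)) (by decide +kernel) (by decide +kernel)⟩

/-- The number of fixed points of an element of order 3 is 6 or 0. -/
theorem fix_three_cases {g : Equiv.Perm GolayPt} (hg : g ∈ M24) (h3 : orderOf g = 3) :
    (Finset.univ.filter fun p => g p = p).card = 6 ∨
      (Finset.univ.filter fun p => g p = p).card = 0 := by
  obtain ⟨h, -, e | e⟩ := order_three_cases hg h3 <;>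
    rw [e, fix_conj, fixCount_eq (reps_good _ (by simp))]
  · exact Or.inl rep_fix.1
  · exact Or.inr rep_fix.2.1

/-- The number of fixed points of an involution is 8 or 0. -/
theorem fix_two_cases {g : Equiv.Perm GolayPt} (hg : g ∈ M24) (h2 : orderOf g = 2) :
    (Finset.univ.filter fun p => g p = p).card = 8 ∨
      (Finset.univ.filter fun p => g p = p).card = 0 := by
  obtain ⟨h, -, e | e⟩ := order_two_cases hg h2 <;>
    rw [e, fix_conj, fixCount_eq (reps_good _ (by simp))]
  · exact Or.inl rep_fix.2.2.1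
  · exact Or.inr rep_fix.2.2.2

theorem conj_of_fix_eq {x y : Equiv.Perm GolayPt} (hx : x ∈ M24) (hy : y ∈ M24)
    (h3 : orderOf x = 3) (h3' : orderOf y = 3)
    (h : (Finset.univ.filter fun p => x p = p).card =
      (Finset.univ.filter fun p => y p = p).card) :
    ∃ k ∈ M24, k * x * k⁻¹ = y := by
  rcases fix_three_cases hx h3 with e | e
  · obtain ⟨a, ha, ea⟩ := conj_three_fix6 hx h3 e
    obtain ⟨b, hb, eb⟩ := conj_three_fix6 hy h3' (h ▸ e)
    exact ⟨b * a⁻¹, mul_mem hb (inv_mem ha), by rw [ea, eb]; group⟩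
  · have e' : (Finset.univ.filter fun p => y p = p).card = 0 := h ▸ e
    simp only [Finset.card_eq_zero, Finset.filter_eq_empty_iff, Finset.mem_univ, true_implies]
      at e e'
    obtain ⟨a, ha, ea⟩ := conj_three_fix0 hx h3 (fun p => @e p)
    obtain ⟨b, hb, eb⟩ := conj_three_fix0 hy h3' (fun p => @e' p)
    exact ⟨b * a⁻¹, mul_mem hb (inv_mem ha), by rw [ea, eb]; group⟩

/-- A subgroup of order 3 is generated by an element of order 3, with the same fixed points. -/
theorem exists_gen_three {X : Subgroup ↥M24} (hX : Nat.card X = 3) :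
    ∃ x : ↥M24, orderOf (x : Equiv.Perm GolayPt) = 3 ∧ X = Subgroup.zpowers x ∧
      {p : GolayPt | ∀ y ∈ X, ((y : ↥M24) : Equiv.Perm GolayPt) p = p}.ncard =
        (Finset.univ.filter fun p => (x : Equiv.Perm GolayPt) p = p).card := by
  haveI : Fact (Nat.Prime 3) := ⟨Nat.prime_three⟩
  obtain ⟨x, hx⟩ := exists_prime_orderOf_dvd_card' (G := X) 3 (by rw [hX])
  have h3 : orderOf ((x : ↥M24) : Equiv.Perm GolayPt) = 3 := by
    rw [Subgroup.orderOf_coe, Subgroup.orderOf_coe, hx]
  have hgen : X = Subgroup.zpowers (x : ↥M24) :=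
    (Subgroup.eq_of_le_of_card_ge (Subgroup.zpowers_le.mpr x.2)
      (by rw [hX, Nat.card_zpowers, Subgroup.orderOf_coe, hx])).symm
  refine ⟨x, h3, hgen, ?_⟩
  rw [← Set.ncard_coe_finset]
  congr 1
  ext p
  simp only [Set.mem_ofPred_eq, Finset.coe_filter, Finset.mem_univ, true_and]
  refine ⟨fun h => h _ x.2, fun h y hy => ?_⟩
  rw [hgen, Subgroup.mem_zpowers_iff] at hy
  obtain ⟨k, rfl⟩ := hy
  rw [SubgroupClass.coe_zpow]
  exact Equiv.Perm.zpow_apply_eq_self_of_apply_eq_self h k

theorem fixSet_zpowers {t : ℕ} {x : ↥M24} (hx : (x : Equiv.Perm GolayPt) = elemOf t)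
    (ht : GoodTab t = true) :
    {p : GolayPt | ∀ y ∈ Subgroup.zpowers x, ((y : ↥M24) : Equiv.Perm GolayPt) p = p}.ncard =
      fixCount t := by
  rw [← fixCount_eq ht, ← Set.ncard_coe_finset, ← hx]
  congr 1
  ext p
  simp only [Set.mem_ofPred_eq, Finset.coe_filter, Finset.mem_univ, true_and]
  refine ⟨fun h => h _ (Subgroup.mem_zpowers x), fun h y hy => ?_⟩
  obtain ⟨k, rfl⟩ := Subgroup.mem_zpowers_iff.mp hy
  rw [SubgroupClass.coe_zpow]
  exact Equiv.Perm.zpow_apply_eq_self_of_apply_eq_self h k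

end Cfsg.Agent.M24
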