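import Cfsg.Agent.M24.FixedReps
import Cfsg.Agent.M24.ThreeSubgroups
import Cfsg.Agent.M24.CentData

/-!
The centraliser of a fixed-point-free involution of M24: order 7680, transitive, fixing a sextet.
-/

set_option autoImplicit false
set_option Elab.async false

namespace Cfsg.Agent.M24

open Cfsg Cfsg.Agent.Golay
open scoped Pointwise

/-- The test for commuting with a coded permutation, on the base. -/
def commBase (R : ℕ) (f : ℕ → ℕ) : Bool :=
  allBase fun i => Nat.beq (f (papp R i)) (papp R (f i))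

theorem commBase_iff {R : ℕ} {r g : Equiv.Perm GolayPt} (hr : Rep R r) (hrm : r ∈ M24)
    (hg : g ∈ M24) : commBase R (posFun g) = true ↔ g * r = r * g := by
  rw [commBase, allBase_iff]
  constructor
  · intro h
    refine eq_of_base (mul_mem hg hrm) (mul_mem hrm hg) fun j hj => ptIdx_injective ?_
    have := Nat.eq_of_beq_eq_true (h j hj)
    rw [← ptIdx_basePt j hj, ← hr, posFun_ptIdx, posFun_ptIdx, ← hr] at this
    exact this
  · intro h j hj
    rw [← ptIdx_basePt j hj, ← hr, posFun_ptIdx, posFun_ptIdx, ← hr, ← Equiv.Perm.mul_apply, h]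
    exact Nat.beq_refl _

theorem commBase_congr {R : ℕ} (hR : ∀ i < 24, papp R i < 24) {f f' : ℕ → ℕ}
    (h : ∀ i < 24, f i = f' i) : commBase R f = commBase R f' :=
  allBase_congr fun j hj => by rw [h _ (hR _ (basePos_lt j hj)), h _ (basePos_lt j hj)]

theorem commBase_act {R t : ℕ} {r g : Equiv.Perm GolayPt} (hr : Rep R r) (hrm : r ∈ M24)
    (hg : g ∈ M24) (hrep : Rep t g) (h : commBase R (papp t) = true) : g * r = r * g := by
  rw [← commBase_iff hr hrm hg, ← h]
  refine commBase_congr (fun i hi => hr.papp_lt hi) fun i hi => ?_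
  rw [posFun, hrep, ptIdx_ptOf i hi]

/-- The centraliser of the fixed-point-free representative. -/
noncomputable def centTwo : Subgroup (Equiv.Perm GolayPt) :=
  M24 ⊓ Subgroup.centralizer {elemOf ord2Fix0}

theorem mem_centTwo {g : Equiv.Perm GolayPt} :
    g ∈ centTwo ↔ g ∈ M24 ∧ g * elemOf ord2Fix0 = elemOf ord2Fix0 * g := by
  rw [centTwo, Subgroup.mem_inf, Subgroup.mem_centralizer_singleton_iff]

/-- Elements of the centraliser fixing the first base point. -/
def CentFix (g : Equiv.Perm GolayPt) : Prop :=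
  g (basePt 0) = basePt 0 ∧ g * elemOf ord2Fix0 = elemOf ord2Fix0 * g

/-- Pruning: the images of paired base points are paired. -/
def okCent (im : List ℕ) : Bool :=
  imgOK im 0 (Nat.beq (basePos 0)) &&
    imgOK im 1 (fun x => Nat.beq x (papp ord2Fix0 (im.getD 0 0))) &&
    imgOK im 3 (fun x => Nat.beq x (papp ord2Fix0 (im.getD 2 0))) &&
    imgOK im 5 (fun x => Nat.beq x (papp ord2Fix0 (im.getD 4 0)))

/-- Full test. -/
def fullCent (f : ℕ → ℕ) : Bool :=
  Nat.beq (f (basePos 0)) (basePos 0) && commBase ord2Fix0 f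

theorem cent_pairs : ∀ j, j = 0 ∨ j = 2 ∨ j = 4 →
    papp ord2Fix0 (basePos j) = basePos (j + 1) := by
  rintro j (rfl | rfl | rfl) <;> decide +kernel

theorem tests_cent : ScanTests CentFix okCent fullCent := by
  obtain ⟨hrm, hr⟩ := elemOf_spec (reps_good ord2Fix0 (by simp))
  refine ⟨fun f f' h _ => ?_, fun g hg => ?_, fun g _ hp k _ => ?_⟩
  · simp only [fullCent, h _ (basePos_lt 0 (by norm_num)),
      commBase_congr (fun i hi => hr.papp_lt hi) h]
  · simp only [fullCent, CentFix, Bool.and_eq_true, Nat.beq_eq, commBase_iff hr hrm hg,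
      posFun_base_iff g (show (0 : ℕ) < 7 by norm_num) (show (0 : ℕ) < 7 by norm_num)]
  · have hpair : ∀ j, j = 0 ∨ j = 2 ∨ j = 4 → imgOK (baseImages g k) (j + 1)
        (fun x => Nat.beq x (papp ord2Fix0 ((baseImages g k).getD j 0))) = true := by
      intro j hj
      rw [imgOK, baseImages_length, Bool.or_eq_true, Nat.ble_eq]
      by_cases hlt : j + 1 < k
      · right
        have hj7 : j + 1 < 7 := by rcases hj with rfl | rfl | rfl <;> omega
        rw [baseImages_getD g hlt, baseImages_getD g (show j < k by omega), Nat.beq_eq, ← hr]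
        congr 1
        have e : elemOf ord2Fix0 (basePt j) = basePt (j + 1) := ptIdx_injective (by
          rw [hr, ptIdx_basePt j (by omega), ptIdx_basePt _ hj7, cent_pairs j hj])
        rw [← e, ← Equiv.Perm.mul_apply, hp.2, Equiv.Perm.mul_apply]
      · left; omega
    simp only [okCent, Bool.and_eq_true]
    refine ⟨⟨⟨imgOK_baseImages _ _ _ _ ?_, hpair 0 (by simp)⟩, hpair 2 (by simp)⟩, hpair 4 (by simp)⟩
    rw [hp.1, ptIdx_basePt 0 (by norm_num)]
    simp

theorem cent_scan_length : (scan okCent fullCent).length = 320 := by decide +kernel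

theorem cent_cert : (List.range 24).all (fun q =>
    GoodTab (ord2Fix0Cent.getD q 0) && Nat.beq (papp (ord2Fix0Cent.getD q 0) 23) q &&
      commBase ord2Fix0 (papp (ord2Fix0Cent.getD q 0))) = true := by decide +kernel

theorem centTwo_transitive (q : GolayPt) : ∃ c ∈ centTwo, c (basePt 0) = q := by
  obtain ⟨hrm, hr⟩ := elemOf_spec (reps_good ord2Fix0 (by simp))
  have h := List.all_eq_true.mp cent_cert (ptIdx q) (List.mem_range.mpr (ptIdx_lt q))
  simp only [Bool.and_eq_true, Nat.beq_eq] at h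
  obtain ⟨⟨hgood, hq⟩, hc⟩ := h
  obtain ⟨g, hg, hrep⟩ := rep_of_good hgood
  refine ⟨g, mem_centTwo.mpr ⟨hg, commBase_act hr hrm hg hrep hc⟩, ptIdx_injective ?_⟩
  rw [hrep, ptIdx_basePt 0 (by norm_num), show basePos 0 = 23 from by decide +kernel, hq]

theorem card_centTwo : Nat.card centTwo = 7680 := by
  rw [card_eq_orbit_mul centTwo (basePt 0) Finset.univ (fun _ _ => Finset.mem_univ _)
    (fun y _ => centTwo_transitive y), Finset.card_univ, Golay.card_golayPt]
  have : Nat.card ↥(centTwo ⊓ MulAction.stabilizer (Equiv.Perm GolayPt) (basePt 0)) = 320 := by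
    rw [← cent_scan_length, ← scan_card tests_cent]
    exact Nat.card_congr
      { toFun := fun g => ⟨g.1, (mem_centTwo.mp g.2.1).1, g.2.2, (mem_centTwo.mp g.2.1).2⟩
        invFun := fun g => ⟨g.1, mem_centTwo.mpr ⟨g.2.1, g.2.2.2⟩, g.2.2.1⟩
        left_inv := fun _ => rfl
        right_inv := fun _ => rfl }
  rw [this]

/-- The keys of all sextets. -/
def allSextetKeys : List ℕ :=
  M24Geo.sextetTree0.keys ++ M24Geo.sextetTree1.keys ++ M24Geo.sextetTree2.keys ++
    M24Geo.sextetTree3.keys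

theorem exists_sextet_key {S : Finset (Finset GolayPt)} (hS : S ∈ sextets) :
    ∃ k ∈ allSextetKeys, M24Geo.decSets 6 k = S := by
  obtain ⟨hval, hcl⟩ := M24Geo.classes_eq (fun _ hg _ hx => M24Geo.smul_mem_sextets hg hx)
    M24Geo.sextet_stabOK _ _ _ _ (show Function.Injective (![96, 48, 36, 32] : Fin 4 → ℕ) by decide)
    M24Geo.sextet_subs (fun i => M24Geo.decSets_sextet (M24Geo.sextet_root_keys i))
    M24Geo.sextet_root_vals (by rw [M24Geo.sextets_ncard]; decide)
  obtain ⟨i, hi⟩ := hval S hS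
  have hmem : S ∈ {x ∈ sextets | M24Geo.interSq (M24Geo.decSets 6 M24Geo.sextet0) x =
      (![96, 48, 36, 32] : Fin 4 → ℕ) i} := ⟨hS, hi.symm⟩
  rw [(hcl i).1] at hmem
  obtain ⟨k, hk, rfl⟩ := hmem
  refine ⟨k, ?_, rfl⟩
  simp only [allSextetKeys, List.mem_append]
  fin_cases i
  · exact Or.inl (Or.inl (Or.inl hk))
  · exact Or.inl (Or.inl (Or.inr hk))
  · exact Or.inl (Or.inr hk)
  · exact Or.inr hk

/-- The test that every tetrad of a key is fixed. -/
def allTetradsFixed (k : ℕ) : Bool :=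
  (M24Geo.masksOf 6 k).all fun m => Nat.beq (M24Geo.actF (geoList ord2Fix0) m) m

theorem fixed_tetrads_filter :
    (allSextetKeys.filter allTetradsFixed).length = 1 ∧
      (allSextetKeys.filter allTetradsFixed).all M24Geo.sextetKey = true := by
  decide +kernel

theorem unique_tetrad_sextet : ∃ S ∈ sextets, (∀ u ∈ S, elemOf ord2Fix0 • u = u) ∧
    ∀ S' ∈ sextets, (∀ u ∈ S', elemOf ord2Fix0 • u = u) → S' = S := by
  have hl := reps_aut.2.2.2
  have hl' := hl
  simp only [M24Geo.autL, Bool.and_eq_true] at hl'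
  rw [elemOf_eq_permOf (reps_good ord2Fix0 (by simp)) hl]
  have htest : ∀ k, allTetradsFixed k = true ↔
      ∀ u ∈ M24Geo.decSets 6 k, M24Geo.permOf (geoList ord2Fix0) • u = u := by
    intro k
    simp only [allTetradsFixed, List.all_eq_true, Nat.beq_eq, M24Geo.actF_eq]
    constructor
    · intro h u hu
      obtain ⟨m, hm, rfl⟩ := M24Geo.mem_decSets.mp hu
      rw [M24Geo.smul_ofMask hl'.1, h m hm]
    · intro h m hm
      refine M24Geo.ofMask_inj (M24Geo.actL_lt hl'.1 _) (M24Geo.masksOf_lt 6 k m hm) ?_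
      rw [← M24Geo.smul_ofMask hl'.1]
      exact h _ (M24Geo.mem_decSets.mpr ⟨m, hm, rfl⟩)
  obtain ⟨hlen, hkey⟩ := fixed_tetrads_filter
  obtain ⟨k, hk⟩ := List.length_eq_one_iff.mp hlen
  have hkm := List.mem_filter.mp (hk ▸ List.mem_singleton_self k)
  refine ⟨M24Geo.decSets 6 k, M24Geo.decSets_sextet
    (List.all_eq_true.mp hkey k (List.mem_filter.mpr hkm)), (htest k).mp hkm.2, fun S hS h => ?_⟩
  obtain ⟨k', hk', rfl⟩ := exists_sextet_key hS
  have := List.mem_filter.mpr ⟨hk', (htest k').mpr h⟩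
  rw [hk, List.mem_singleton] at this
  rw [this]

theorem involution_centralizer {t : Equiv.Perm GolayPt} (ht : t ∈ M24) (h2 : orderOf t = 2)
    (h0 : ∀ p, t p ≠ p) :
    Nat.card {c : Equiv.Perm GolayPt // c ∈ M24 ∧ c * t = t * c} = 7680 ∧
      (∀ p q : GolayPt, ∃ c ∈ M24, c * t = t * c ∧ c p = q) ∧
      ∃ S ∈ sextets, t • S = S ∧ ∀ c ∈ M24, c * t = t * c → c • S = S := by
  obtain ⟨h, hh, e⟩ := conj_two_fix0 ht h2 h0
  set r := elemOf ord2Fix0
  have hback : ∀ c, c * t = t * c → (h⁻¹ * c * h) * r = r * (h⁻¹ * c * h) := by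
    intro c hc
    rw [show r = h⁻¹ * t * h by rw [e]; group,
      show h⁻¹ * c * h * (h⁻¹ * t * h) = h⁻¹ * (c * t) * h by group, hc]
    group
  have hfwd : ∀ c, c * r = r * c → (h * c * h⁻¹) * t = t * (h * c * h⁻¹) := by
    intro c hc
    rw [e, show h * c * h⁻¹ * (h * r * h⁻¹) = h * (c * r) * h⁻¹ by group, hc]
    group
  refine ⟨?_, fun p q => ?_, ?_⟩
  · rw [← card_centTwo]
    exact Nat.card_congr
      { toFun := fun c => ⟨h⁻¹ * c.1 * h,
          mem_centTwo.mpr ⟨mul_mem (mul_mem (inv_mem hh) c.2.1) hh, hback _ c.2.2⟩⟩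
        invFun := fun c => ⟨h * c.1 * h⁻¹, mul_mem (mul_mem hh (mem_centTwo.mp c.2).1) (inv_mem hh),
          hfwd _ (mem_centTwo.mp c.2).2⟩
        left_inv := fun c => Subtype.ext (show h * (h⁻¹ * c.1 * h) * h⁻¹ = c.1 by group)
        right_inv := fun c => Subtype.ext (show h⁻¹ * (h * c.1 * h⁻¹) * h = c.1 by group) }
  · obtain ⟨a, ha, ea⟩ := centTwo_transitive (h⁻¹ p)
    obtain ⟨b, hb, eb⟩ := centTwo_transitive (h⁻¹ q)
    obtain ⟨hm, hc⟩ := mem_centTwo.mp (mul_mem hb (inv_mem ha))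
    refine ⟨h * (b * a⁻¹) * h⁻¹, mul_mem (mul_mem hh hm) (inv_mem hh), hfwd _ hc, ?_⟩
    simp only [Equiv.Perm.mul_apply]
    rw [show a⁻¹ (h⁻¹ p) = basePt 0 by rw [← ea]; exact a.symm_apply_apply _, eb]
    exact h.apply_symm_apply q
  · obtain ⟨S, hS, hfix, huniq⟩ := unique_tetrad_sextet
    refine ⟨h • S, M24Geo.smul_mem_sextets hh hS, ?_, fun c hc hct => ?_⟩
    · have hrS : r • S = S := by
        ext u
        rw [Finset.mem_smul_finset]
        exact ⟨fun ⟨v, hv, hvu⟩ => hvu ▸ (hfix v hv).symm ▸ hv, fun hu => ⟨u, hu, hfix u hu⟩⟩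
      rw [← mul_smul, show t * h = h * r by rw [e]; group, mul_smul, hrS]
    · have hd := huniq ((h⁻¹ * c * h) • S)
        (M24Geo.smul_mem_sextets (mul_mem (mul_mem (inv_mem hh) hc) hh) hS) (fun u hu => by
          obtain ⟨v, hv, rfl⟩ := Finset.mem_smul_finset.mp hu
          rw [← mul_smul, ← hback c hct, mul_smul, hfix v hv])
      rw [← mul_smul, show c * h = h * (h⁻¹ * c * h) by group, mul_smul, hd]

end Cfsg.Agent.M24
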