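import Cfsg.Agent.M24Geo.Octad

/-!
Distances in the graph of octads (adjacent when disjoint).
-/

set_option autoImplicit false

namespace Cfsg.Agent.M24

open Cfsg Cfsg.Agent.M24Geo
open scoped Pointwise

/-- The octad keys disjoint from the base octad. -/
def octNbrs : List ℕ := octadTree.keys.filter fun m => Nat.beq (m &&& octad0) 0

/-- A common neighbour of the base octad and `k`. -/
def commonNbr (k : ℕ) : Bool := octNbrs.any fun m => Nat.beq (m &&& k) 0

theorem octGraph_check : octadTree.keys.all (fun k =>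
    (bif Nat.beq (popc (k &&& octad0)) 4 then commonNbr k else true) &&
    (bif Nat.beq (popc (k &&& octad0)) 2 then
      !commonNbr k && octNbrs.any (fun m => Nat.beq (popc (m &&& k)) 4) else true)) = true := by
  decide +kernel

theorem octKey_word {k : ℕ} (hk : k ∈ octadTree.keys) : ofMask k ∈ octads :=
  mem_wordsOfWeight_iff.mpr ⟨k, List.all_eq_true.mp octad_keys_word k hk, rfl⟩

theorem disjoint_ofMask_iff {a k : ℕ} (hk : k ∈ octadTree.keys) :
    (ofMask a ∩ ofMask k).card = 0 ↔ a &&& k = 0 := by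
  rw [Finset.card_eq_zero, ← Finset.disjoint_iff_inter_eq_empty,
    ofMask_disjoint_iff (key_lt octad_keys_word hk)]

theorem mem_octNbrs {m : ℕ} : m ∈ octNbrs ↔ m ∈ octadTree.keys ∧ m &&& octad0 = 0 := by
  simp [octNbrs, Nat.beq_eq]

/-- What a base octad knows about another. -/
theorem base_octad_facts {y : Finset GolayPt} (hy : y ∈ octads) :
    ((ofMask octad0 ∩ y).card = 4 → ∃ c ∈ octads, (ofMask octad0 ∩ c).card = 0 ∧ (c ∩ y).card = 0) ∧
    ((ofMask octad0 ∩ y).card = 2 →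
      (∀ c ∈ octads, ¬ ((ofMask octad0 ∩ c).card = 0 ∧ (c ∩ y).card = 0)) ∧
      ∃ c ∈ octads, (ofMask octad0 ∩ c).card = 0 ∧ (c ∩ y).card = 4) := by
  obtain ⟨k, hk, rfl⟩ := octad_hX y hy
  have h := List.all_eq_true.mp octGraph_check k hk
  rw [Bool.and_eq_true] at h
  rw [inter_card_mask]
  have ofNbr : ∀ m ∈ octNbrs, ofMask m ∈ octads ∧ (ofMask octad0 ∩ ofMask m).card = 0 := by
    intro m hm
    obtain ⟨hmk, hm0⟩ := mem_octNbrs.mp hm
    exact ⟨octKey_word hmk, (disjoint_ofMask_iff hmk).mpr (by rw [Nat.and_comm, hm0])⟩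
  constructor
  · intro h4
    have h' := h.1
    rw [h4] at h'
    simp only [show Nat.beq 4 4 = true from rfl, cond_true, commonNbr, List.any_eq_true,
      Nat.beq_eq] at h'
    obtain ⟨m, hm, hmk⟩ := h'
    exact ⟨_, (ofNbr m hm).1, (ofNbr m hm).2, (disjoint_ofMask_iff hk).mpr hmk⟩
  · intro h2
    have h' := h.2
    rw [h2] at h'
    simp only [show Nat.beq 2 2 = true from rfl, cond_true, Bool.and_eq_true,
      Bool.not_eq_true', List.any_eq_true, Nat.beq_eq] at h'
    obtain ⟨hno, m, hm, hmk⟩ := h'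
    refine ⟨?_, _, (ofNbr m hm).1, (ofNbr m hm).2, ?_⟩
    · rintro c hc ⟨h1, h2'⟩
      obtain ⟨l, hl, rfl⟩ := octad_hX c hc
      have hl0 : l &&& octad0 = 0 := by
        rw [Nat.and_comm]; exact (disjoint_ofMask_iff hl).mp h1
      have hlk : l &&& k = 0 := (disjoint_ofMask_iff hk).mp h2'
      have : commonNbr k = true := by
        simp only [commonNbr, List.any_eq_true, Nat.beq_eq]
        exact ⟨l, mem_octNbrs.mpr ⟨hl, hl0⟩, hlk⟩
      rw [this] at hno
      exact Bool.false_ne_true hno.symm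
    · rw [inter_card_mask, Nat.and_comm, hmk]

theorem octad_facts {x y : Finset GolayPt} (hx : x ∈ octads) (hy : y ∈ octads) :
    ((x ∩ y).card = 4 → ∃ c ∈ octads, (x ∩ c).card = 0 ∧ (c ∩ y).card = 0) ∧
    ((x ∩ y).card = 2 →
      (∀ c ∈ octads, ¬ ((x ∩ c).card = 0 ∧ (c ∩ y).card = 0)) ∧
      ∃ c ∈ octads, (x ∩ c).card = 0 ∧ (c ∩ y).card = 4) := by
  obtain ⟨g, hg, rfl⟩ := octad_trans hx
  obtain ⟨h4, h2⟩ := base_octad_facts (smul_mem_words (inv_mem hg) hy)
  have e : ∀ c, (ofMask octad0 ∩ g⁻¹ • c).card = (g • ofMask octad0 ∩ c).card := fun c => by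
    rw [← inter_card_smul g _ (g⁻¹ • c), smul_inv_smul]
  rw [e] at h4 h2
  refine ⟨fun h => ?_, fun h => ⟨fun c hc hcc => ?_, ?_⟩⟩
  · obtain ⟨c, hc, h1, h2'⟩ := h4 h
    refine ⟨g • c, smul_mem_words hg hc, by rw [inter_card_smul]; exact h1, ?_⟩
    rw [← h2', ← inter_card_smul g c, smul_inv_smul]
  · refine (h2 h).1 (g⁻¹ • c) (smul_mem_words (inv_mem hg) hc) ⟨(e c).trans hcc.1, ?_⟩
    rw [inter_card_smul]; exact hcc.2
  · obtain ⟨c, hc, h1, h2'⟩ := (h2 h).2
    refine ⟨g • c, smul_mem_words hg hc, by rw [inter_card_smul]; exact h1, ?_⟩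
    rw [← h2', ← inter_card_smul g c, smul_inv_smul]

theorem octad_adj_iff {x y : octads} :
    (blockGraph octads).Adj x y ↔ ((x : Finset GolayPt) ∩ y).card = 0 := by
  simp only [blockGraph, SimpleGraph.fromRel_adj, Finset.card_eq_zero,
    ← Finset.disjoint_iff_inter_eq_empty]
  constructor
  · rintro ⟨-, h | h⟩
    exacts [h, h.symm]
  · intro h
    refine ⟨?_, Or.inl h⟩
    rintro rfl
    have h8 : (x : Finset GolayPt).card = 8 := x.2.2
    rw [disjoint_self, Finset.bot_eq_empty] at h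
    rw [h] at h8
    simp at h8

theorem octad_walk (o o' : octads) : ∃ w : (blockGraph octads).Walk o o', w.length ≤ 3 ∧
    ((o.1 ∩ o'.1).card = 4 → w.length ≤ 2) := by
  rcases octad_inter_values o.2 o'.2 with h | h | h | h
  · have e : o = o' := Subtype.ext (by
      refine (Finset.eq_of_subset_of_card_le (Finset.inter_subset_left (s₂ := o'.1)) ?_).symm.trans ?_
      · rw [h]; exact o.2.2.le
      · refine Finset.eq_of_subset_of_card_le Finset.inter_subset_right ?_
        rw [h]; exact o'.2.2.le)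
    subst e
    exact ⟨SimpleGraph.Walk.nil, by simp, by simp⟩
  · obtain ⟨c, hc, h1, h2⟩ := (octad_facts o.2 o'.2).1 h
    exact ⟨.cons (v := ⟨c, hc⟩) (octad_adj_iff.mpr h1) (.cons (octad_adj_iff.mpr h2) .nil),
      by simp, by simp⟩
  · obtain ⟨c, hc, h1, h2⟩ := ((octad_facts o.2 o'.2).2 h).2
    obtain ⟨e, he, h3, h4⟩ := (octad_facts hc o'.2).1 h2
    exact ⟨.cons (v := ⟨c, hc⟩) (octad_adj_iff.mpr h1)
      (.cons (v := ⟨e, he⟩) (octad_adj_iff.mpr h3) (.cons (octad_adj_iff.mpr h4) .nil)),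
      by simp, fun h' => by omega⟩
  · exact ⟨.cons (octad_adj_iff.mpr h) .nil, by simp, by simp⟩

theorem octad_graph_distance {o o' : octads} (hne : o ≠ o') :
    (blockGraph octads).Connected ∧
    ((blockGraph octads).dist o o' = 1 ↔ (o.1 ∩ o'.1).card = 0) ∧
    ((blockGraph octads).dist o o' = 2 ↔ (o.1 ∩ o'.1).card = 4) ∧
    ((blockGraph octads).dist o o' = 3 ↔ (o.1 ∩ o'.1).card = 2) := by
  set G := blockGraph octads
  haveI : Nonempty octads := ⟨o⟩
  have hconn : G.Connected :=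
    ⟨fun a b => ⟨(octad_walk a b).choose⟩⟩
  have h1 : G.dist o o' = 1 ↔ (o.1 ∩ o'.1).card = 0 := by
    rw [SimpleGraph.dist_eq_one_iff_adj, octad_adj_iff]
  have hpos : 0 < G.dist o o' := hconn.pos_dist_of_ne hne
  obtain ⟨w, hw3, hw2⟩ := octad_walk o o'
  have hle : G.dist o o' ≤ w.length := SimpleGraph.dist_le w
  have h8 : (o.1 ∩ o'.1).card ≠ 8 := by
    intro h
    refine hne (Subtype.ext ?_)
    refine (Finset.eq_of_subset_of_card_le (Finset.inter_subset_left (s₂ := o'.1)) ?_).symm.trans ?_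
    · rw [h]; exact o.2.2.le
    · refine Finset.eq_of_subset_of_card_le Finset.inter_subset_right ?_
      rw [h]; exact o'.2.2.le
  have hnot2 : (o.1 ∩ o'.1).card = 2 → G.dist o o' ≠ 2 := by
    intro h hd
    obtain ⟨p, hp⟩ := hconn.exists_walk_length_eq_dist o o'
    rw [hd] at hp
    match p, hp with
    | .cons (v := c) ha (.cons hb .nil), _ =>
      exact ((octad_facts o.2 o'.2).2 h).1 c.1 c.2 ⟨octad_adj_iff.mp ha, octad_adj_iff.mp hb⟩
  refine ⟨hconn, h1, ?_, ?_⟩
  all_goals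
    rcases octad_inter_values o.2 o'.2 with h | h | h | h
    · exact absurd h h8
    · have := hw2 h
      have : G.dist o o' ≠ 1 := fun e => by rw [h1.mp e] at h; omega
      omega
    · have := hnot2 h
      have : G.dist o o' ≠ 1 := fun e => by rw [h1.mp e] at h; omega
      omega
    · have := h1.mpr h
      omega

end Cfsg.Agent.M24
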