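import Cfsg.Agent.M24Geo.OctadStab

/-!
Orders of the stabilisers of two octads, from the suborbit lengths.
-/

set_option autoImplicit false

namespace Cfsg.Agent.M24

open Cfsg
open scoped Pointwise

theorem card_inf_stab_mul {G X : Type*} [Group G] [MulAction G X] (x y : X) :
    Nat.card ↥(MulAction.stabilizer G x ⊓ MulAction.stabilizer G y) *
      (MulAction.orbit (MulAction.stabilizer G x) y).ncard =
      Nat.card ↥(MulAction.stabilizer G x) := by
  have h := Subgroup.card_mul_index (MulAction.stabilizer (MulAction.stabilizer G x) y)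
  rw [MulAction.index_stabilizer] at h
  rw [← h]
  congr 1
  exact Nat.card_congr
    { toFun := fun g => ⟨⟨g.1, g.2.1⟩, g.2.2⟩
      invFun := fun g => ⟨g.1.1, g.1.2, g.2⟩
      left_inv := fun _ => rfl
      right_inv := fun _ => rfl }

theorem card_stab_octad {o : Finset GolayPt} (ho : o ∈ octads) :
    Nat.card ↥(MulAction.stabilizer M24 o) = 322560 := by
  rw [Nat.card_congr (M24Geo.stabInfEquiv o).toEquiv]
  exact M24Geo.card_octStab ho

theorem card_stab_two_octads {o o' : Finset GolayPt} (ho : o ∈ octads) (ho' : o' ∈ octads) :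
    Nat.card ↥(MulAction.stabilizer M24 o ⊓ MulAction.stabilizer M24 o') *
      M24Geo.octCnt (o ∩ o').card = 322560 := by
  rw [← card_stab_octad ho, ← card_inf_stab_mul o o']
  congr 1
  exact (M24Geo.octadFamily.stab_orbit_ncard ho ho').symm

theorem card_stab_two_octads_values {o o' : Finset GolayPt} (ho : o ∈ octads) (ho' : o' ∈ octads) :
    ((o ∩ o').card = 0 →
      Nat.card ↥(MulAction.stabilizer M24 o ⊓ MulAction.stabilizer M24 o') = 10752) ∧
    ((o ∩ o').card = 4 →
      Nat.card ↥(MulAction.stabilizer M24 o ⊓ MulAction.stabilizer M24 o') = 1152) ∧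
    ((o ∩ o').card = 2 →
      Nat.card ↥(MulAction.stabilizer M24 o ⊓ MulAction.stabilizer M24 o') = 720) := by
  obtain ⟨-, c4, c2, c0, -⟩ := M24Geo.octCnt_values
  have h := card_stab_two_octads ho ho'
  refine ⟨fun e => ?_, fun e => ?_, fun e => ?_⟩
  · rw [e, c0] at h; omega
  · rw [e, c4] at h; omega
  · rw [e, c2] at h; omega

end Cfsg.Agent.M24
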