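import Cfsg.Agent.M24.Perm

/-!
Backtrack search over the stabiliser chain of M24: the elements satisfying a property, listed by
kernel computation with pruning on the images of the base points.
-/

set_option autoImplicit false

namespace Cfsg.Agent.M24

open Cfsg Cfsg.Agent.Golay

/-- Images of the first base points under a path. -/
def baseImgs (P : List ℕ) : List ℕ := (List.range P.length).map fun j => act P (basePos j)

/-- Images of all positions under a path. -/
def allImgs (P : List ℕ) : List ℕ := (List.range 24).map (act P)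

/-- The paths through the given levels that pass both tests. -/
def searchFrom (ok full : List ℕ → Bool) : List (List ℕ) → List ℕ → List (List ℕ)
  | [], P => bif ok (baseImgs P) && full (allImgs P) then [P] else []
  | T :: rest, P => bif ok (baseImgs P) then T.flatMap fun t => searchFrom ok full rest (P ++ [t])
      else []

/-- The paths that pass both tests. -/
def search (ok full : List ℕ → Bool) : List (List ℕ) := searchFrom ok full transTab []

/-- Images of the first `k` base points under a permutation. -/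
def imgsOf (g : Equiv.Perm GolayPt) (k : ℕ) : List ℕ :=
  (List.range k).map fun j => ptIdx (g (basePt j))

/-- Images of all positions under a permutation. -/
def tableOf (g : Equiv.Perm GolayPt) : List ℕ := (List.range 24).map fun i => ptIdx (g (ptOf i))

/-- The tests are correct for a property. -/
structure Tests (Pred : Equiv.Perm GolayPt → Prop) (ok full : List ℕ → Bool) : Prop where
  iff_full : ∀ g ∈ M24, Pred g ↔ full (tableOf g) = true
  ok_of : ∀ g ∈ M24, Pred g → ∀ k ≤ 7, ok (imgsOf g k) = true

theorem RepPath.baseImgs_eq {P : List ℕ} {a : Equiv.Perm GolayPt} (h : RepPath P a)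
    (hP : P.length ≤ 7) : baseImgs P = imgsOf a P.length := by
  refine List.map_congr_left fun j hj => ?_
  rw [h, ptIdx_basePt j (by have := List.mem_range.mp hj; omega)]

theorem RepPath.allImgs_eq {P : List ℕ} {a : Equiv.Perm GolayPt} (h : RepPath P a) :
    allImgs P = tableOf a := by
  refine List.map_congr_left fun i hi => ?_
  rw [h, ptIdx_ptOf i (List.mem_range.mp hi)]

theorem imgsOf_congr {g a : Equiv.Perm GolayPt} {k : ℕ}
    (h : ∀ j < k, g (basePt j) = a (basePt j)) : imgsOf g k = imgsOf a k :=
  List.map_congr_left fun j hj => by rw [h j (List.mem_range.mp hj)]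

theorem searchFrom_spec {Pred : Equiv.Perm GolayPt → Prop} {ok full : List ℕ → Bool}
    (ht : Tests Pred ok full) :
    ∀ (n k : ℕ), k + n = 7 → ∀ (P : List ℕ) (a : Equiv.Perm GolayPt), a ∈ M24 → P.length = k →
      RepPath P a →
      (∀ Q ∈ searchFrom ok full (transTab.drop k) P, ∃ g ∈ M24, Pred g ∧ RepPath Q g ∧
        ∀ j < k, g (basePt j) = a (basePt j)) ∧
      (∀ g ∈ M24, Pred g → (∀ j < k, g (basePt j) = a (basePt j)) →
        ∃ Q ∈ searchFrom ok full (transTab.drop k) P, RepPath Q g) ∧
      (searchFrom ok full (transTab.drop k) P).Nodup ∧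
      ∀ Q ∈ searchFrom ok full (transTab.drop k) P, ∀ Q' ∈ searchFrom ok full (transTab.drop k) P,
        ∀ g, RepPath Q g → RepPath Q' g → Q = Q' := by
  intro n
  induction n with
  | zero =>
    intro k hk P a ha hP hr
    obtain rfl : k = 7 := by omega
    have e : transTab.drop 7 = [] := rfl
    rw [e]
    have hb := hr.baseImgs_eq (by omega)
    rw [hP] at hb
    have hf := hr.allImgs_eq
    unfold searchFrom
    refine ⟨?_, ?_, ?_, ?_⟩
    · intro Q hQ
      cases hc : ok (baseImgs P) && full (allImgs P) with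
      | false => rw [hc] at hQ; simp at hQ
      | true =>
        rw [hc, cond_true, List.mem_singleton] at hQ
        subst hQ
        rw [Bool.and_eq_true, hf] at hc
        exact ⟨a, ha, (ht.iff_full a ha).mpr hc.2, hr, fun j _ => rfl⟩
    · intro g hg hp hagree
      have : g = a := by
        have h7 : a⁻¹ * g ∈ chainStab M24 7 := mem_chainStab.mpr
          ⟨mul_mem (inv_mem ha) hg, fun j hj => by
            rw [Equiv.Perm.mul_apply, Equiv.Perm.inv_eq_iff_eq]; exact hagree j hj⟩
        rw [chainStab_seven, Subgroup.mem_bot, inv_mul_eq_one] at h7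
        exact h7.symm
      subst this
      rw [hb, hf, ht.ok_of g hg hp 7 le_rfl, (ht.iff_full g hg).mp hp]
      exact ⟨P, by simp, hr⟩
    · cases ok (baseImgs P) && full (allImgs P) <;> simp
    · intro Q hQ Q' hQ' g _ _
      cases hc : ok (baseImgs P) && full (allImgs P) <;> rw [hc] at hQ hQ' <;>
        simp at hQ hQ'
      rw [hQ, hQ']
  | succ n ih =>
    intro k hk P a ha hP hr
    have hk7 : k < 7 := by omega
    have hlen : k < transTab.length := by simpa [transTab] using hk7
    have e : transTab.drop k = transTab.getD k [] :: transTab.drop (k + 1) := by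
      rw [List.drop_eq_getElem_cons hlen, List.getD_eq_getElem _ _ hlen]
    rw [e]
    unfold searchFrom
    have hb := hr.baseImgs_eq (by omega)
    rw [hP] at hb
    have child : ∀ t ∈ transTab.getD k [], ∃ b, b ∈ chainStab M24 k ∧ Rep t b ∧
        RepPath (P ++ [t]) (a * b) := fun t ht' => by
      obtain ⟨b, hb, hrb⟩ := exists_rep_level hk7 ht'
      exact ⟨b, hb, hrb, hr.append hrb⟩
    choose b hb1 hb2 hb3 using child
    have hih := fun t (ht' : t ∈ transTab.getD k []) => ih (k + 1) (by omega) (P ++ [t])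
      (a * b t ht') (mul_mem ha (mem_chainStab.mp (hb1 t ht')).1) (by simp [hP]) (hb3 t ht')
    have agree : ∀ t (ht' : t ∈ transTab.getD k []), ∀ j < k,
        (a * b t ht') (basePt j) = a (basePt j) := fun t ht' j hj => by
      rw [Equiv.Perm.mul_apply, (mem_chainStab.mp (hb1 t ht')).2 j hj]
    have key : ∀ t (ht' : t ∈ transTab.getD k []), ∀ s (hs' : s ∈ transTab.getD k []),
        ∀ Q ∈ searchFrom ok full (transTab.drop (k + 1)) (P ++ [t]),
        ∀ Q' ∈ searchFrom ok full (transTab.drop (k + 1)) (P ++ [s]),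
        ∀ g, RepPath Q g → RepPath Q' g → t = s := by
      intro t ht' s hs' Q hQ Q' hQ' g hg hg'
      obtain ⟨g1, -, -, hr1, h1⟩ := (hih t ht').1 Q hQ
      obtain ⟨g2, -, -, hr2, h2⟩ := (hih s hs').1 Q' hQ'
      rw [hr1.unique hg] at h1
      rw [hr2.unique hg'] at h2
      have hbb : b t ht' (basePt k) = b s hs' (basePt k) := a.injective (by
        rw [← Equiv.Perm.mul_apply, ← h1 k (by omega), h2 k (by omega), Equiv.Perm.mul_apply])
      have h3 := congrArg ptIdx hbb
      rw [hb2, hb2, ptIdx_basePt k hk7] at h3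
      exact List.inj_on_of_nodup_map (transTab_nodup k hk7) ht' hs' h3
    cases hc : ok (baseImgs P) with
    | false =>
      refine ⟨by simp, fun g hg hp hagree => ?_, by simp, by simp⟩
      rw [hb, ← imgsOf_congr hagree, ht.ok_of g hg hp k (by omega)] at hc
      exact absurd hc (by simp)
    | true =>
      rw [cond_true]
      refine ⟨?_, ?_, ?_, ?_⟩
      · intro Q hQ
        obtain ⟨t, ht', hQ⟩ := List.mem_flatMap.mp hQ
        obtain ⟨g, hg, hp, hrQ, hag⟩ := (hih t ht').1 Q hQ
        exact ⟨g, hg, hp, hrQ, fun j hj => (hag j (by omega)).trans (agree t ht' j hj)⟩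
      · intro g hg hp hagree
        have hin : a⁻¹ * g ∈ chainStab M24 k := mem_chainStab.mpr
          ⟨mul_mem (inv_mem ha) hg, fun j hj => by
            rw [Equiv.Perm.mul_apply, Equiv.Perm.inv_eq_iff_eq]; exact hagree j hj⟩
        obtain ⟨t, ht', het⟩ := transTab_cover k hk7 _ (isTarget_apply hk7 hin)
        have hbk : b t ht' (basePt k) = (a⁻¹ * g) (basePt k) := ptIdx_injective (by
          rw [hb2, ptIdx_basePt k hk7, het])
        obtain ⟨Q, hQ, hrQ⟩ := (hih t ht').2.1 g hg hp (fun j hj => by
          rcases Nat.lt_succ_iff_lt_or_eq.mp hj with hj | rfl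
          · rw [agree t ht' j hj, hagree j hj]
          · rw [Equiv.Perm.mul_apply, hbk, Equiv.Perm.mul_apply, Equiv.Perm.coe_inv,
              Equiv.apply_symm_apply])
        exact ⟨Q, List.mem_flatMap.mpr ⟨t, ht', hQ⟩, hrQ⟩
      · refine List.nodup_flatMap.mpr ⟨fun t ht' => (hih t ht').2.2.1, ?_⟩
        refine ((transTab_nodup k hk7).of_map _).imp_of_mem ?_
        intro t s ht' hs' hne Q hQ hQ'
        obtain ⟨g, -, -, hrQ, -⟩ := (hih t ht').1 Q hQ
        exact hne (key t ht' s hs' Q hQ Q hQ' g hrQ hrQ)
      · intro Q hQ Q' hQ' g hg hg'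
        obtain ⟨t, ht', hQ⟩ := List.mem_flatMap.mp hQ
        obtain ⟨s, hs', hQ'⟩ := List.mem_flatMap.mp hQ'
        obtain rfl := key t ht' s hs' Q hQ Q' hQ' g hg hg'
        exact (hih t ht').2.2.2 Q hQ Q' hQ' g hg hg'

theorem search_sound {Pred : Equiv.Perm GolayPt → Prop} {ok full : List ℕ → Bool}
    (ht : Tests Pred ok full) {Q : List ℕ} (hQ : Q ∈ search ok full) :
    ∃ g ∈ M24, Pred g ∧ RepPath Q g := by
  obtain ⟨g, hg, hp, hr, -⟩ :=
    (searchFrom_spec ht 7 0 rfl [] 1 (one_mem _) rfl repPath_nil).1 Q hQ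
  exact ⟨g, hg, hp, hr⟩

theorem search_complete {Pred : Equiv.Perm GolayPt → Prop} {ok full : List ℕ → Bool}
    (ht : Tests Pred ok full) {g : Equiv.Perm GolayPt} (hg : g ∈ M24) (hp : Pred g) :
    ∃ Q ∈ search ok full, RepPath Q g :=
  (searchFrom_spec ht 7 0 rfl [] 1 (one_mem _) rfl repPath_nil).2.1 g hg hp
    (fun _ hj => absurd hj (Nat.not_lt_zero _))

/-- A property of the image table holds on every solution once it holds on every found path. -/
theorem search_forall {Pred : Equiv.Perm GolayPt → Prop} {ok full : List ℕ → Bool}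
    (ht : Tests Pred ok full) {chk : List ℕ → Bool}
    (hchk : (search ok full).all (fun Q => chk (allImgs Q)) = true)
    {g : Equiv.Perm GolayPt} (hg : g ∈ M24) (hp : Pred g) : chk (tableOf g) = true := by
  obtain ⟨Q, hQ, hr⟩ := search_complete ht hg hp
  rw [← hr.allImgs_eq]
  exact List.all_eq_true.mp hchk Q hQ

/-- A property of the image table found on some path is found on some solution. -/
theorem search_exists {Pred : Equiv.Perm GolayPt → Prop} {ok full : List ℕ → Bool}
    (ht : Tests Pred ok full) {chk : List ℕ → Bool}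
    (hchk : (search ok full).any (fun Q => chk (allImgs Q)) = true) :
    ∃ g ∈ M24, Pred g ∧ chk (tableOf g) = true := by
  obtain ⟨Q, hQ, h⟩ := List.any_eq_true.mp hchk
  obtain ⟨g, hg, hp, hr⟩ := search_sound ht hQ
  exact ⟨g, hg, hp, hr.allImgs_eq ▸ h⟩

/-- The number of solutions. -/
theorem search_card {Pred : Equiv.Perm GolayPt → Prop} {ok full : List ℕ → Bool}
    (ht : Tests Pred ok full) :
    Nat.card {g : Equiv.Perm GolayPt // g ∈ M24 ∧ Pred g} = (search ok full).length := by
  obtain ⟨-, -, hnd, huniq⟩ := searchFrom_spec ht 7 0 rfl [] 1 (one_mem _) rfl repPath_nil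
  have hnd : (search ok full).Nodup := hnd
  have hu : ∀ Q ∈ search ok full, ∀ Q' ∈ search ok full, ∀ g, RepPath Q g → RepPath Q' g → Q = Q' :=
    huniq
  choose f hf1 hf2 hf3 using fun (i : Fin (search ok full).length) =>
    search_sound ht (List.getElem_mem i.isLt)
  let F : Fin (search ok full).length → {g : Equiv.Perm GolayPt // g ∈ M24 ∧ Pred g} :=
    fun i => ⟨f i, hf1 i, hf2 i⟩
  have hb : Function.Bijective F := by
    refine ⟨fun i j h => Fin.ext ?_, fun g => ?_⟩
    · have h' : f i = f j := congrArg Subtype.val h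
      exact (hnd.getElem_inj_iff).mp (hu _ (List.getElem_mem i.isLt) _ (List.getElem_mem j.isLt)
        (f i) (hf3 i) (h' ▸ hf3 j))
    · obtain ⟨Q, hQ, hr⟩ := search_complete ht g.2.1 g.2.2
      obtain ⟨i, hi, rfl⟩ := List.mem_iff_getElem.mp hQ
      exact ⟨⟨i, hi⟩, Subtype.ext ((hf3 ⟨i, hi⟩).unique hr)⟩
  rw [← Nat.card_eq_of_bijective F hb, Nat.card_fin]

end Cfsg.Agent.M24
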