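import Cfsg.Agent.M24.InvolutionCentralizer

/-!
The normaliser and centraliser of a subgroup of order 7 of M24.
-/

set_option autoImplicit false
set_option Elab.async false

namespace Cfsg.Agent.M24

open Cfsg Cfsg.Agent.Golay
open scoped Pointwise

/-- An element of order 7 moving the first five base points along a cycle. -/
def ord7Tab : ℕ := 9759154893309751776970966210612289

/-- Two elements commuting with it but not with each other. -/
def cent7A : ℕ := 983548720921252936276249910206105632

/-- Two elements commuting with it but not with each other. -/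
def cent7B : ℕ := 750936687238808116688526313904087286

theorem seven_good : GoodTab ord7Tab = true ∧ GoodTab cent7A = true ∧ GoodTab cent7B = true ∧
    powOne 7 (papp ord7Tab) = true ∧ fixCount ord7Tab ≠ 24 ∧
    commBase ord7Tab (papp cent7A) = true ∧ commBase ord7Tab (papp cent7B) = true ∧
    allBase (fun i => Nat.beq (papp cent7A (papp cent7B i)) (papp cent7B (papp cent7A i))) =
      false := by
  decide +kernel

theorem seven_base : (∀ j < 5, papp ord7Tab (basePos j) = basePos (j + 1)) ∧
    papp ord7Tab (basePos 6) = basePos 6 := by decide +kernel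

/-- The element of order 7. -/
noncomputable def elt7 : ↥M24 := ⟨elemOf ord7Tab, (elemOf_spec seven_good.1).1⟩

theorem orderOf_elt7 : orderOf elt7 = 7 := by
  haveI : Fact (Nat.Prime 7) := ⟨by norm_num⟩
  rw [← Subgroup.orderOf_coe]
  exact orderOf_elemOf seven_good.1 seven_good.2.2.2.1 seven_good.2.2.2.2.1

/-- Normalising the group of order 7. -/
def NormSeven (g : Equiv.Perm GolayPt) : Prop :=
  ∃ k ∈ List.range' 1 6, g * elemOf ord7Tab = elemOf ord7Tab ^ k * g

/-- Centralising it. -/
def CentSeven (g : Equiv.Perm GolayPt) : Prop :=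
  g * elemOf ord7Tab = elemOf ord7Tab ^ 1 * g

/-- The images follow the cycle with a given step. -/
def followSeven (ks : List ℕ) (im : List ℕ) : Bool :=
  (ks.any fun k => [0, 1, 2, 3, 4].all fun j =>
    imgOK im (j + 1) fun x => Nat.beq x (powBase (papp ord7Tab) k (im.getD j 0))) &&
    imgOK im 6 fun x => Nat.beq (papp ord7Tab x) x

/-- The test for conjugating to a power. -/
def powConj (k : ℕ) (f : ℕ → ℕ) : Bool :=
  allBase fun i => Nat.beq (f (papp ord7Tab i)) (powBase (papp ord7Tab) k (f i))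

theorem powBase_rep {t : ℕ} {r : Equiv.Perm GolayPt} (hr : Rep t r) (k : ℕ) (p : GolayPt) :
    powBase (papp t) k (ptIdx p) = ptIdx ((r ^ k) p) := by
  induction k with
  | zero => simp [powBase]
  | succ k ih => rw [powBase, ih, pow_succ', Equiv.Perm.mul_apply, hr]

theorem powConj_iff {g : Equiv.Perm GolayPt} (hg : g ∈ M24) (k : ℕ) :
    powConj k (posFun g) = true ↔ g * elemOf ord7Tab = elemOf ord7Tab ^ k * g := by
  obtain ⟨hrm, hr⟩ := elemOf_spec seven_good.1
  rw [powConj, allBase_iff]
  constructor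
  · intro h
    refine eq_of_base (mul_mem hg hrm) (mul_mem (pow_mem hrm k) hg) fun j hj => ptIdx_injective ?_
    have := Nat.eq_of_beq_eq_true (h j hj)
    rw [← ptIdx_basePt j hj, ← hr, posFun_ptIdx, posFun_ptIdx, powBase_rep hr] at this
    exact this
  · intro h j hj
    rw [← ptIdx_basePt j hj, ← hr, posFun_ptIdx, posFun_ptIdx, powBase_rep hr,
      ← Equiv.Perm.mul_apply, h]
    exact Nat.beq_refl _

theorem powConj_congr {f f' : ℕ → ℕ} (h : ∀ i < 24, f i = f' i) (k : ℕ) :
    powConj k f = powConj k f' :=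
  allBase_congr fun j hj => by
    rw [h _ ((elemOf_spec seven_good.1).2.papp_lt (basePos_lt j hj)), h _ (basePos_lt j hj)]

theorem follow_of_conj {g : Equiv.Perm GolayPt} {ks : List ℕ} {k : ℕ} (hk : k ∈ ks)
    (h : g * elemOf ord7Tab = elemOf ord7Tab ^ k * g) (n : ℕ) :
    followSeven ks (baseImages g n) = true := by
  obtain ⟨-, hr⟩ := elemOf_spec seven_good.1
  have happ : ∀ p, g (elemOf ord7Tab p) = (elemOf ord7Tab ^ k) (g p) := fun p => by
    rw [← Equiv.Perm.mul_apply, h, Equiv.Perm.mul_apply]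
  rw [followSeven, Bool.and_eq_true, List.any_eq_true]
  refine ⟨⟨k, hk, List.all_eq_true.mpr fun j hj => ?_⟩, imgOK_baseImages _ _ _ _ ?_⟩
  · have hj5 : j < 5 := by simp only [List.mem_cons, List.not_mem_nil, or_false] at hj; omega
    rw [imgOK, baseImages_length, Bool.or_eq_true, Nat.ble_eq]
    by_cases hlt : j + 1 < n
    · right
      rw [baseImages_getD g hlt, baseImages_getD g (show j < n by omega), Nat.beq_eq,
        powBase_rep hr, ← happ]
      congr 2
      exact ptIdx_injective (by
        rw [hr, ptIdx_basePt j (by omega), ptIdx_basePt _ (by omega), seven_base.1 j hj5])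
    · left; omega
  · have hfix : elemOf ord7Tab (basePt 6) = basePt 6 :=
      ptIdx_injective (by rw [hr, ptIdx_basePt 6 (by norm_num), seven_base.2])
    have h6 := happ (basePt 6)
    rw [hfix] at h6
    rw [Nat.beq_eq, ← hr]
    congr 1
    have hor : orderOf (elemOf ord7Tab) = 7 := by
      have := orderOf_elt7; rwa [← Subgroup.orderOf_coe] at this
    by_contra hne
    have hco : Nat.Coprime k 7 ∨ 7 ∣ k := by
      rcases Nat.coprime_or_dvd_of_prime (by norm_num : Nat.Prime 7) k with h | h
      · exact Or.inl h.symm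
      · exact Or.inr h
    rcases hco with hco | hdvd
    · obtain ⟨m, hm⟩ := Nat.exists_mul_mod_eq_one_of_coprime (n := k) (k := 7) hco (by norm_num)
      have h1 : (elemOf ord7Tab ^ (k * m)) (g (basePt 6)) = g (basePt 6) := by
        rw [pow_mul]
        exact Equiv.Perm.pow_apply_eq_self_of_apply_eq_self h6.symm m
      rw [← pow_mod_orderOf, hor, hm.2, pow_one] at h1
      exact hne h1
    · obtain ⟨m, rfl⟩ := hdvd
      rw [pow_mul, show elemOf ord7Tab ^ 7 = 1 by rw [← hor]; exact pow_orderOf_eq_one _, one_pow,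
        one_mul, mul_eq_left] at h
      rw [h, orderOf_one] at hor
      exact absurd hor (by norm_num)

theorem tests_norm7 : ScanTests NormSeven (followSeven (List.range' 1 6))
    (fun f => (List.range' 1 6).any fun k => powConj k f) := by
  refine ⟨fun f f' h _ => ?_, fun g hg => ?_, fun g _ hp n _ => ?_⟩
  · simp only [powConj_congr h]
  · simp only [NormSeven, List.any_eq_true, powConj_iff hg]
  · obtain ⟨k, hk, h⟩ := hp
    exact follow_of_conj hk h n

theorem tests_cent7 : ScanTests CentSeven (followSeven [1]) (powConj 1) :=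
  ⟨fun _ _ h _ => powConj_congr h 1, fun _ hg => (powConj_iff hg 1).symm,
    fun _ _ hp n _ => follow_of_conj List.mem_cons_self hp n⟩

theorem norm7_length :
    (scan (followSeven (List.range' 1 6))
      (fun f => (List.range' 1 6).any fun k => powConj k f)).length = 126 := by
  decide +kernel

theorem cent7_length : (scan (followSeven [1]) (powConj 1)).length = 42 := by decide +kernel

theorem mem_normalizer_elt7 {g : ↥M24} :
    g ∈ Subgroup.normalizer (Subgroup.zpowers elt7 : Set ↥M24) ↔
      NormSeven (g : Equiv.Perm GolayPt) := by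
  have h7 := orderOf_elt7
  constructor
  · intro hg
    have hm : g * elt7 * g⁻¹ ∈ Subgroup.zpowers elt7 :=
      (Subgroup.mem_normalizer_iff.mp hg elt7).mp (Subgroup.mem_zpowers _)
    obtain ⟨k, hk⟩ := mem_powers_iff_mem_zpowers.mpr hm
    change elt7 ^ k = g * elt7 * g⁻¹ at hk
    rw [← pow_mod_orderOf, h7] at hk
    refine ⟨k % 7, List.mem_range'_1.mpr ⟨Nat.one_le_iff_ne_zero.mpr fun h0 => ?_,
      by have := Nat.mod_lt k (show 7 > 0 by norm_num); omega⟩,
      congrArg Subtype.val (show g * elt7 = elt7 ^ (k % 7) * g by rw [hk]; group)⟩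
    rw [h0, pow_zero, eq_comm, conj_eq_one_iff] at hk
    rw [hk, orderOf_one] at h7
    exact absurd h7 (by norm_num)
  · rintro ⟨k, -, h⟩
    have hk : g * elt7 * g⁻¹ = elt7 ^ k := by
      rw [mul_inv_eq_iff_eq_mul]
      exact Subtype.ext h
    have hmap : (Subgroup.zpowers elt7).map (MulAut.conj g).toMonoidHom =
        Subgroup.zpowers elt7 := by
      refine Subgroup.eq_of_le_of_card_ge ?_
        (Subgroup.card_map_of_injective (MulAut.conj g).injective).ge
      rw [MonoidHom.map_zpowers, Subgroup.zpowers_le]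
      show g * elt7 * g⁻¹ ∈ Subgroup.zpowers elt7
      rw [hk]
      exact pow_mem (Subgroup.mem_zpowers elt7) k
    rw [Subgroup.mem_normalizer_iff]
    intro x
    constructor
    · intro hx
      rw [← hmap]
      exact ⟨x, hx, rfl⟩
    · intro hx
      rw [← hmap] at hx
      obtain ⟨y, hy, e⟩ := hx
      exact (MulAut.conj g).injective e ▸ hy

theorem mem_centralizer_elt7 {g : ↥M24} :
    g ∈ Subgroup.centralizer (Subgroup.zpowers elt7 : Set ↥M24) ↔
      CentSeven (g : Equiv.Perm GolayPt) := by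
  rw [CentSeven, pow_one]
  constructor
  · intro h
    exact congrArg Subtype.val (Subgroup.mem_centralizer_iff.mp h elt7 (Subgroup.mem_zpowers _)).symm
  · intro h
    rw [Subgroup.mem_centralizer_iff]
    intro x hx
    obtain ⟨n, rfl⟩ := Subgroup.mem_zpowers_iff.mp hx
    exact (Commute.zpow_left (show Commute elt7 g from Subtype.ext h.symm) n)

theorem card_normalizer_elt7 :
    Nat.card ↥(Subgroup.normalizer (Subgroup.zpowers elt7 : Set ↥M24)) = 126 := by
  rw [← norm7_length, ← scan_card tests_norm7]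
  exact Nat.card_congr
    { toFun := fun g => ⟨g.1.1, g.1.2, mem_normalizer_elt7.mp g.2⟩
      invFun := fun g => ⟨⟨g.1, g.2.1⟩, mem_normalizer_elt7.mpr g.2.2⟩
      left_inv := fun _ => rfl
      right_inv := fun _ => rfl }

theorem card_centralizer_elt7 :
    Nat.card ↥(Subgroup.centralizer (Subgroup.zpowers elt7 : Set ↥M24)) = 42 := by
  rw [← cent7_length, ← scan_card tests_cent7]
  exact Nat.card_congr
    { toFun := fun g => ⟨g.1.1, g.1.2, mem_centralizer_elt7.mp g.2⟩
      invFun := fun g => ⟨⟨g.1, g.2.1⟩, mem_centralizer_elt7.mpr g.2.2⟩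
      left_inv := fun _ => rfl
      right_inv := fun _ => rfl }

theorem centralizer_elt7_nonabelian :
    ∃ x ∈ Subgroup.centralizer (Subgroup.zpowers elt7 : Set ↥M24),
      ∃ y ∈ Subgroup.centralizer (Subgroup.zpowers elt7 : Set ↥M24), x * y ≠ y * x := by
  obtain ⟨hR, hA, hB, -, -, cA, cB, hne⟩ := seven_good
  obtain ⟨hrm, hr⟩ := elemOf_spec hR
  obtain ⟨a, ha, ra⟩ := rep_of_good hA
  obtain ⟨b, hb, rb⟩ := rep_of_good hB
  refine ⟨⟨a, ha⟩, mem_centralizer_elt7.mpr ?_, ⟨b, hb⟩, mem_centralizer_elt7.mpr ?_, fun h => ?_⟩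
  · rw [CentSeven, pow_one]; exact commBase_act hr hrm ha ra cA
  · rw [CentSeven, pow_one]; exact commBase_act hr hrm hb rb cB
  · have e : ∀ p, a (b p) = b (a p) := fun p =>
      DFunLike.congr_fun (congrArg Subtype.val h : a * b = b * a) p
    rw [← Bool.not_eq_true, allBase_iff] at hne
    refine hne fun j hj => ?_
    rw [← ptIdx_basePt j hj, ← rb, ← ra, ← ra, ← rb, e]
    exact Nat.beq_refl _

/-- The keys of all trios. -/
def allTrioKeys : List ℕ :=
  M24Geo.trioTree0.keys ++ M24Geo.trioTree1.keys ++ M24Geo.trioTree2.keys ++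
    M24Geo.trioTree3.keys ++ M24Geo.trioTree4.keys

theorem exists_trio_key {S : Finset (Finset GolayPt)} (hS : S ∈ trios) :
    ∃ k ∈ allTrioKeys, M24Geo.decSets 3 k = S := by
  obtain ⟨hval, hcl⟩ := M24Geo.classes_eq (fun _ hg _ hx => M24Geo.smul_mem_trios hg hx)
    M24Geo.trio_stabOK _ _ _ _
    (show Function.Injective (![192, 128, 96, 80, 72] : Fin 5 → ℕ) by decide)
    M24Geo.trio_subs (fun i => M24Geo.decSets_trio_of_key (M24Geo.trio_root_keys i))
    M24Geo.trio_root_vals (by rw [M24Geo.trios_ncard]; decide)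
  obtain ⟨i, hi⟩ := hval S hS
  have hmem : S ∈ {x ∈ trios | M24Geo.interSq (M24Geo.decSets 3 M24Geo.trio0) x =
      (![192, 128, 96, 80, 72] : Fin 5 → ℕ) i} := ⟨hS, hi.symm⟩
  rw [(hcl i).1] at hmem
  obtain ⟨k, hk, rfl⟩ := hmem
  refine ⟨k, ?_, rfl⟩
  simp only [allTrioKeys, List.mem_append]
  fin_cases i
  · exact Or.inl (Or.inl (Or.inl (Or.inl hk)))
  · exact Or.inl (Or.inl (Or.inl (Or.inr hk)))
  · exact Or.inl (Or.inl (Or.inr hk))
  · exact Or.inl (Or.inr hk)
  · exact Or.inr hk

theorem seven_aut : M24Geo.autL (geoList ord7Tab) = true := by decide +kernel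

/-- The test that every octad of a key is fixed. -/
def allOctadsFixed (k : ℕ) : Bool :=
  (M24Geo.masksOf 3 k).all fun m => Nat.beq (M24Geo.actF (geoList ord7Tab) m) m

theorem fixed_octads_filter :
    (allTrioKeys.filter allOctadsFixed).length = 1 ∧
      (allTrioKeys.filter allOctadsFixed).all M24Geo.trioKey = true := by
  decide +kernel

theorem exists_invariant_trio : ∃ T ∈ trios, ∀ n ∈
    Subgroup.normalizer (Subgroup.zpowers elt7 : Set ↥M24),
      ((n : ↥M24) : Equiv.Perm GolayPt) • T = T := by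
  set l := geoList ord7Tab
  have hl : M24Geo.validL l = true := by
    have := seven_aut; simp only [M24Geo.autL, Bool.and_eq_true] at this; exact this.1
  have hr : elemOf ord7Tab = M24Geo.permOf l := elemOf_eq_permOf seven_good.1 seven_aut
  have htest : ∀ k, allOctadsFixed k = true ↔
      ∀ u ∈ M24Geo.decSets 3 k, elemOf ord7Tab • u = u := by
    intro k
    simp only [allOctadsFixed, List.all_eq_true, Nat.beq_eq, M24Geo.actF_eq, hr]
    constructor
    · intro h u hu
      obtain ⟨m, hm, rfl⟩ := M24Geo.mem_decSets.mp hu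
      rw [M24Geo.smul_ofMask hl, h m hm]
    · intro h m hm
      refine M24Geo.ofMask_inj (M24Geo.actL_lt hl _) (M24Geo.masksOf_lt 3 k m hm) ?_
      rw [← M24Geo.smul_ofMask hl]
      exact h _ (M24Geo.mem_decSets.mpr ⟨m, hm, rfl⟩)
  obtain ⟨hlen, hkey⟩ := fixed_octads_filter
  obtain ⟨k, hk⟩ := List.length_eq_one_iff.mp hlen
  have hkm := List.mem_filter.mp (hk ▸ List.mem_singleton_self k)
  have hT := M24Geo.decSets_trio_of_key (List.all_eq_true.mp hkey k (List.mem_filter.mpr hkm))
  refine ⟨_, hT, fun n hn => ?_⟩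
  obtain ⟨k', hk', hk'e⟩ := exists_trio_key (M24Geo.smul_mem_trios n.2 hT)
  have hfix : allOctadsFixed k' = true := by
    rw [htest, hk'e]
    intro u hu
    obtain ⟨v, hv, rfl⟩ := Finset.mem_smul_finset.mp hu
    obtain ⟨j, -, hj⟩ := mem_normalizer_elt7.mp (inv_mem hn)
    rw [← mul_smul, show elemOf ord7Tab * (n : Equiv.Perm GolayPt) =
      (n : Equiv.Perm GolayPt) * elemOf ord7Tab ^ j by
        have h' : (n : Equiv.Perm GolayPt)⁻¹ * elemOf ord7Tab =
            elemOf ord7Tab ^ j * (n : Equiv.Perm GolayPt)⁻¹ := hj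
        rw [show elemOf ord7Tab ^ j = (n : Equiv.Perm GolayPt)⁻¹ * elemOf ord7Tab *
          (n : Equiv.Perm GolayPt) by rw [h']; group]
        group,
      mul_smul]
    refine congrArg (fun w : Finset GolayPt => (n : Equiv.Perm GolayPt) • w) ?_
    exact MulAction.mem_stabilizer_iff.mp (pow_mem
      (MulAction.mem_stabilizer_iff.mpr ((htest k).mp hkm.2 v hv)) j)
  have := List.mem_filter.mpr ⟨hk', hfix⟩
  rw [hk, List.mem_singleton] at this
  rw [← hk'e, this]

theorem seven_facts (S : Subgroup ↥M24) (hS : Nat.card S = 7) :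
    Nat.card ↥(Subgroup.normalizer (S : Set ↥M24)) = 126 ∧
      Nat.card ↥(Subgroup.centralizer (S : Set ↥M24)) = 42 ∧
      (∃ x ∈ Subgroup.centralizer (S : Set ↥M24), ∃ y ∈ Subgroup.centralizer (S : Set ↥M24),
        x * y ≠ y * x) ∧
      ∃ T ∈ trios, ∀ n ∈ Subgroup.normalizer (S : Set ↥M24),
        ((n : ↥M24) : Equiv.Perm GolayPt) • T = T := by
  haveI : Fact (Nat.Prime 7) := ⟨by norm_num⟩
  have hcard : ∀ K : Subgroup ↥M24, Nat.card K = 7 →
      Nat.card K = 7 ^ (Nat.card ↥M24).factorization 7 := by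
    intro K hK
    rw [hK, card_M24]
    have h1 : (244823040 : ℕ) = 7 ^ 1 * 34974720 := by norm_num
    rw [h1, Nat.factorization_mul (by norm_num) (by norm_num), Nat.Prime.factorization_pow
      (by norm_num : Nat.Prime 7), Finsupp.add_apply, Finsupp.single_eq_same,
      Nat.factorization_eq_zero_of_not_dvd (by norm_num : ¬ 7 ∣ 34974720), add_zero, pow_one]
  have hR : Nat.card ↥(Subgroup.zpowers elt7) = 7 := by rw [Nat.card_zpowers, orderOf_elt7]
  obtain ⟨k, hk⟩ := MulAction.exists_smul_eq ↥M24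
    (Sylow.ofCard (Subgroup.zpowers elt7) (hcard _ hR)) (Sylow.ofCard S (hcard _ hS))
  have hS' : S = (Subgroup.zpowers elt7).map (MulAut.conj k).toMonoidHom :=
    (congrArg (fun P : Sylow 7 ↥M24 => (P : Subgroup ↥M24)) hk).symm
  subst hS'
  have hN : (Subgroup.normalizer
      ((Subgroup.zpowers elt7).map (MulAut.conj k).toMonoidHom : Set ↥M24)) =
      (Subgroup.normalizer (Subgroup.zpowers elt7 : Set ↥M24)).map (MulAut.conj k).toMonoidHom :=
    (Subgroup.map_equiv_normalizer_eq _ (MulAut.conj k)).symm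
  have hC : (Subgroup.centralizer
      ((Subgroup.zpowers elt7).map (MulAut.conj k).toMonoidHom : Set ↥M24)) =
      (Subgroup.centralizer (Subgroup.zpowers elt7 : Set ↥M24)).map
        (MulAut.conj k).toMonoidHom := by
    ext x
    constructor
    · intro hx
      refine ⟨k⁻¹ * x * k, Subgroup.mem_centralizer_iff.mpr fun y hy => ?_, ?_⟩
      · have e : k * y * k⁻¹ * x = x * (k * y * k⁻¹) :=
          Subgroup.mem_centralizer_iff.mp hx _ ⟨y, hy, rfl⟩
        rw [show y * (k⁻¹ * x * k) = k⁻¹ * (k * y * k⁻¹ * x) * k by group, e]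
        group
      · show k * (k⁻¹ * x * k) * k⁻¹ = x
        group
    · rintro ⟨y, hy, rfl⟩
      refine Subgroup.mem_centralizer_iff.mpr ?_
      rintro _ ⟨z, hz, rfl⟩
      rw [← map_mul, Subgroup.mem_centralizer_iff.mp hy z hz, map_mul]
  refine ⟨?_, ?_, ?_, ?_⟩
  · rw [hN, Subgroup.card_map_of_injective (MulAut.conj k).injective, card_normalizer_elt7]
  · rw [hC, Subgroup.card_map_of_injective (MulAut.conj k).injective, card_centralizer_elt7]
  · obtain ⟨x, hx, y, hy, hne⟩ := centralizer_elt7_nonabelian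
    rw [hC]
    refine ⟨_, ⟨x, hx, rfl⟩, _, ⟨y, hy, rfl⟩, fun h => hne ?_⟩
    rw [← map_mul, ← map_mul] at h
    exact (MulAut.conj k).injective h
  · obtain ⟨T, hT, hinv⟩ := exists_invariant_trio
    refine ⟨(k : Equiv.Perm GolayPt) • T, M24Geo.smul_mem_trios k.2 hT, fun n hn => ?_⟩
    rw [hN] at hn
    obtain ⟨m, hm, rfl⟩ := hn
    show ((k * m * k⁻¹ : ↥M24) : Equiv.Perm GolayPt) • (k : Equiv.Perm GolayPt) • T = _
    simp only [Subgroup.coe_mul, InvMemClass.coe_inv, mul_smul, inv_smul_smul, hinv m hm]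

end Cfsg.Agent.M24
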