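import Cfsg.Agent.M24.InvolCore
import Cfsg.Agent.M24.BlockCertA
import Cfsg.Agent.M24.BlockCertB
import Cfsg.Agent.M24.BlockCertC
import Cfsg.Agent.BlkChar.SingleBlock
import Cfsg.Agent.Golay.MathieuSimple

/-!
M22 and M24 have a single 2-block.
-/

set_option autoImplicit false
set_option linter.style.haveILetI false

open scoped ComplexConjugate
open Finset

namespace Cfsg.Agent.M24

open Cfsg Cfsg.Agent.Golay BlockData

variable {S : List (List ℕ)} {H : Subgroup (Equiv.Perm GolayPt)}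

theorem local_of_core (hH : ∀ x, x ∈ H ↔ x ∈ M24 ∧ x ∈ setStab S)
    (hQ : ∀ z ∈ H, ∀ Q, Core z Q → Q ≤ H) (z : H) (hz : orderOf z = 2) :
    ∃ N : Subgroup H, N ≤ Subgroup.centralizer {z} ∧ IsPGroup 2 N ∧
      (∀ c ∈ Subgroup.centralizer {z}, ∀ x ∈ N, c * x * c⁻¹ ∈ N) ∧
      Subgroup.centralizer {z} ⊓ Subgroup.centralizer (N : Set H) ≤ N := by
  obtain ⟨Q, hcore⟩ := exists_core ((hH _).1 z.2).1 (by rw [Subgroup.orderOf_coe, hz])
  have hQH := hQ _ z.2 Q hcore
  obtain ⟨h1, h2, h3, -⟩ := hcore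
  refine ⟨Q.subgroupOf H, fun x hx => ?_, fun x => ⟨1, ?_⟩, fun c hc x hx => ?_, ?_⟩
  · exact Subgroup.mem_centralizer_singleton_iff.2 (Subtype.ext (h1 _ hx).2.1)
  · refine Subtype.ext (Subtype.ext ?_)
    rw [pow_one, SubmonoidClass.coe_pow, SubmonoidClass.coe_pow, pow_two]
    exact (h1 _ x.2).2.2
  · exact h2 _ ((hH _).1 c.2).1
      (congrArg Subtype.val (Subgroup.mem_centralizer_singleton_iff.1 hc)) _ hx
  · rintro c ⟨hc, hcN⟩
    exact h3 _ ((hH _).1 c.2).1
      (congrArg Subtype.val (Subgroup.mem_centralizer_singleton_iff.1 hc)) fun q hq =>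
        congrArg Subtype.val (Subgroup.mem_centralizer_iff.1 hcN ⟨q, hQH hq⟩ hq).symm

section Term

variable {G : Type*} [Group G] [Fintype G] [DecidableEq G] {χ : G → ℂ}

theorem term_ge (hχ : IsIrrCharacter G χ) (hvan : ∀ x, 2 ∣ orderOf x → χ x = 0) {n : ℕ}
    (hn : χ 1 = n) {q : ℕ} (hq : q.Prime) (hq2 : q ≠ 2) (g : G) (hg : orderOf g = q) (e : ℕ)
    (hdvd : 2 ^ e ∣ Nat.card (Subgroup.centralizer ({g} : Set G)))
    [DecidablePred (· ∈ Subgroup.zpowers g)] :
    (((2 ^ e) ^ 2 * ((n / 2 ^ e) % q * (q - (n / 2 ^ e) % q)) : ℕ) : ℝ) ≤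
      ∑ h ∈ (univ : Finset G).filter (fun h => h ∈ Subgroup.zpowers g ∧ h ≠ 1),
        Complex.normSq (χ h) := by
  classical
  haveI := Fact.mk Nat.prime_two
  obtain ⟨T, hT⟩ := Sylow.exists_subgroup_card_pow_prime 2 hdvd
  have hTc : Nat.card (T.map (Subgroup.centralizer ({g} : Set G)).subtype) = 2 ^ e := by
    rw [Subgroup.card_map_of_injective (Subgroup.subtype_injective _), hT]
  haveI := Fintype.ofFinite (Subgroup.zpowers g)
  have hmain := (SingleBlock.normSq_sum_ge (p := 2) hχ hvan (Subgroup.zpowers g)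
    (T.map (Subgroup.centralizer ({g} : Set G)).subtype) hq hq2
    (by rw [Nat.card_zpowers, hg]) (IsPGroup.of_card hTc) hTc (fun h hh t ht => ?_) hn).2
  · refine hmain.trans_eq (Finset.sum_bij (fun h _ => (h : G)) (fun h hh => ?_)
      (fun a _ b _ hab => Subtype.ext hab) (fun b hb => ?_) fun _ _ => rfl)
    · rw [mem_filter]
      exact ⟨mem_univ _, h.2, fun h1 => (mem_erase.1 hh).1 (Subtype.ext h1)⟩
    · obtain ⟨-, hb1, hb2⟩ := mem_filter.1 hb
      exact ⟨⟨b, hb1⟩, mem_erase.2 ⟨fun h1 => hb2 (congrArg Subtype.val h1), mem_univ _⟩, rfl⟩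
  · obtain ⟨z, rfl⟩ := Subgroup.mem_zpowers_iff.1 hh
    obtain ⟨t', -, rfl⟩ := ht
    exact (show Commute g (t' : G) from
      (Subgroup.mem_centralizer_singleton_iff.1 t'.2).symm).zpow_left z

/-- A defect-zero degree for `p = 2` has the full 2-part, a square bound and vanishes on
2-singular elements. -/
theorem defect_zero_data (χ : IrrCharacter G) {a m : ℕ} (hG : Nat.card G = 2 ^ a * m)
    (h : (Nat.card G).factorization 2 ≤ (charDegree (χ : G → ℂ)).factorization 2) (hm : ¬ 2 ∣ m) :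
    ∃ k, charDegree (χ : G → ℂ) = 2 ^ a * k ∧ k ∣ m ∧ (2 ^ a * k) ^ 2 ≤ Nat.card G ∧
      (χ : G → ℂ) 1 = ((2 ^ a * k : ℕ) : ℂ) ∧
      ∀ x, 2 ∣ orderOf x → (χ : G → ℂ) x = 0 := by
  classical
  obtain ⟨h1, hd0, -⟩ := Block.irr_one_eq_charDegree χ.2
  obtain ⟨d, -, hd, c, hc⟩ := Char.irr_degree_dvd_card χ.2
  have hdd : d = charDegree (χ : G → ℂ) := by exact_mod_cast hd.symm.trans h1
  rw [hdd] at hc
  set n := charDegree (χ : G → ℂ)
  have hc0 : c ≠ 0 := fun h0 => Nat.card_pos.ne' (by rw [hc, h0, mul_zero])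
  have hm0 : m ≠ 0 := fun h0 => hm (h0 ▸ dvd_zero 2)
  have hfac : (Nat.card G).factorization 2 = a := by
    rw [hG, Nat.factorization_mul (by positivity) hm0, Finsupp.add_apply,
      Nat.prime_two.factorization_pow, Finsupp.single_eq_same,
      Nat.factorization_eq_zero_of_not_dvd hm, add_zero]
  have hc2 : ¬ 2 ∣ c := fun h2 => by
    have := (Nat.prime_two.dvd_iff_one_le_factorization hc0).mp h2
    rw [hc, Nat.factorization_mul hd0.ne' hc0, Finsupp.add_apply] at h
    omega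
  have hdvd : 2 ^ a ∣ n := (Nat.prime_two.pow_dvd_iff_le_factorization hd0.ne').mpr (hfac ▸ h)
  obtain ⟨k, hk⟩ := hdvd
  have hkm : k ∣ m := ⟨c, Nat.eq_of_mul_eq_mul_left (by positivity : 0 < 2 ^ a)
    (by rw [← mul_assoc, ← hk, ← hc, hG])⟩
  refine ⟨k, hk, hkm, ?_, by rw [h1, hk], Char.irr_defect_zero_vanish χ.2 Nat.prime_two h1 hc hc2⟩
  rw [← hk]
  have hsum : ∑ g, Complex.normSq ((χ : G → ℂ) g) = (Nat.card G : ℝ) := by
    have h2 := Char.sum_mul_conj_eq_card_mul_classInner (χ : G → ℂ) χ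
    rw [Char.classInner_irr_self χ.2, mul_one] at h2
    simp only [Complex.mul_conj] at h2
    exact_mod_cast h2
  have h3 := Finset.single_le_sum (fun g _ => Complex.normSq_nonneg ((χ : G → ℂ) g))
    (mem_univ (1 : G))
  rw [hsum, h1, Complex.normSq_natCast, ← pow_two] at h3
  exact_mod_cast h3

end Term

theorem mem_M24_iff' (x : Equiv.Perm GolayPt) : x ∈ M24 ↔ x ∈ M24 ∧ x ∈ setStab [] :=
  ⟨fun h => ⟨h, fun _ _ hT => absurd hT List.not_mem_nil⟩, And.left⟩

theorem mem_M22_iff (x : Equiv.Perm GolayPt) :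
    x ∈ Spor.M22 ↔ x ∈ M24 ∧ x ∈ setStab [[23], [0]] := by
  have h : ([[23], [0]] : List (List ℕ)) = [ptIdx none, ptIdx (some 0)].map fun i => [i] := by decide
  rw [h, fix_iff]
  simp only [List.mem_cons, List.not_mem_nil, or_false, ptIdx_injective.eq_iff, Spor.M22, Spor.M23,
    Subgroup.mem_inf, MulAction.mem_stabilizer_iff, Equiv.Perm.smul_def]
  refine ⟨fun hx => ⟨hx.1.1, ?_⟩, fun hx => ⟨⟨hx.1, hx.2 _ (Or.inl rfl)⟩, hx.2 _ (Or.inr rfl)⟩⟩
  rintro p (rfl | rfl)
  · exact hx.1.2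
  · exact hx.2

theorem core_le_M24 (z : Equiv.Perm GolayPt) (_hz : z ∈ M24) (Q : Subgroup (Equiv.Perm GolayPt))
    (h : Core z Q) : Q ≤ M24 := fun x hx => (h.1 x hx).1

theorem core_le_M22 (z : Equiv.Perm GolayPt) (hz : z ∈ Spor.M22)
    (Q : Subgroup (Equiv.Perm GolayPt)) (h : Core z Q) : Q ≤ Spor.M22 := fun x hx => by
  simp only [Spor.M22, Spor.M23, Subgroup.mem_inf, MulAction.mem_stabilizer_iff,
    Equiv.Perm.smul_def] at hz ⊢
  exact ⟨⟨(h.1 x hx).1, h.2.2.2 _ hz.1.2 x hx⟩, h.2.2.2 _ hz.2 x hx⟩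

theorem no_defect_zero_M24 (χ : IrrCharacter M24) :
    (charDegree (χ : M24 → ℂ)).factorization 2 < (Nat.card M24).factorization 2 := by
  classical
  haveI := Fintype.ofFinite M24
  by_contra hcon
  obtain ⟨k, -, hkm, hle, hn, hvan⟩ := defect_zero_data χ (a := 10) (m := 239085)
    (by rw [card_M24]; norm_num) (not_lt.mp hcon) (by norm_num)
  obtain ⟨a5, o5, r5⟩ := elem_spec (by norm_num) mem_M24_iff' elem5
  obtain ⟨a7, o7, r7⟩ := elem_spec (by norm_num) mem_M24_iff' elem7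
  obtain ⟨a11, o11, r11⟩ := elem_spec (by norm_num) mem_M24_iff' elem11
  obtain ⟨a23, o23, r23⟩ := elem_spec (by norm_num) mem_M24_iff' elem23
  have b5 := card_normalizer_le (by norm_num) mem_M24_iff' a5 o5 r5 _ _ tw5
  have b7 := card_normalizer_le (by norm_num) mem_M24_iff' a7 o7 r7 _ _ tw7
  have b11 := card_normalizer_le (by norm_num) mem_M24_iff' a11 o11 r11 _ _ tw11
  have b23 := card_normalizer_le (by norm_num) mem_M24_iff' a23 o23 r23 _ _ tw23
  have t5 := term_ge χ.2 hvan hn (by norm_num) (by norm_num) a5 o5 2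
    (by rw [card_centralizer_le mem_M24_iff' a5 r5 tw5_1]; norm_num)
  have t7 := term_ge χ.2 hvan hn (by norm_num) (by norm_num) a7 o7 1
    (by rw [card_centralizer_le mem_M24_iff' a7 r7 tw7_1]; norm_num)
  have t11 := term_ge χ.2 hvan hn (by norm_num) (by norm_num) a11 o11 0 (by simp)
  have t23 := term_ge χ.2 hvan hn (by norm_num) (by norm_num) a23 o23 0 (by simp)
  have hb := SingleBlock.normSq_bound χ.2 hn
    ![Subgroup.zpowers a5, Subgroup.zpowers a7, Subgroup.zpowers a11, Subgroup.zpowers a23]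
    ![5, 7, 11, 23] ![240, 126, 110, 253]
    ![((((2 ^ 2) ^ 2 * (((2 ^ 10 * k) / 2 ^ 2) % 5 * (5 - ((2 ^ 10 * k) / 2 ^ 2) % 5)) : ℕ)) : ℝ),
      ((((2 ^ 1) ^ 2 * (((2 ^ 10 * k) / 2 ^ 1) % 7 * (7 - ((2 ^ 10 * k) / 2 ^ 1) % 7)) : ℕ)) : ℝ),
      ((((2 ^ 0) ^ 2 * (((2 ^ 10 * k) / 2 ^ 0) % 11 * (11 - ((2 ^ 10 * k) / 2 ^ 0) % 11)) : ℕ)) : ℝ),
      ((((2 ^ 0) ^ 2 * (((2 ^ 10 * k) / 2 ^ 0) % 23 * (23 - ((2 ^ 10 * k) / 2 ^ 0) % 23)) : ℕ)) : ℝ)]
    (by intro i; fin_cases i <;> norm_num)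
    (by intro i j h; fin_cases i <;> fin_cases j <;> simp_all)
    (by
      intro i
      fin_cases i
      · exact (Nat.card_zpowers a5).trans o5
      · exact (Nat.card_zpowers a7).trans o7
      · exact (Nat.card_zpowers a11).trans o11
      · exact (Nat.card_zpowers a23).trans o23)
    (by
      intro i
      fin_cases i
      · exact b5.trans (by decide)
      · exact b7.trans (by decide)
      · exact b11.trans (by decide)
      · exact b23.trans (by decide))
    (by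
      intro i
      match i with
      | 0 => convert t5 <;> simp
      | 1 => convert t7 <;> simp
      | 2 => convert t11 <;> simp
      | 3 => convert t23 <;> simp)
    ∅ (by simp)
  rw [Fin.sum_univ_four, Finset.sum_empty, add_zero, card_M24] at hb
  rw [card_M24] at hle
  have hk16 : k < 16 := by nlinarith
  interval_cases k <;> revert hkm hle hb <;>
    norm_num [Matrix.cons_val_two, Matrix.cons_val_three, Matrix.tail_cons, Matrix.head_cons]

theorem exists_order_three_part (χ : IrrCharacter Spor.M22) [Fintype Spor.M22] {n : ℕ}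
    (hn : (χ : Spor.M22 → ℂ) 1 = n) (h9 : ¬ 9 ∣ n) :
    ∃ x : Spor.M22, x ≠ 1 ∧ orderOf x ∣ 9 ∧ (χ : Spor.M22 → ℂ) x ≠ 0 := by
  classical
  haveI := Fact.mk Nat.prime_three
  obtain ⟨E, hE⟩ := Sylow.exists_subgroup_card_pow_prime (G := Spor.M22) 3 (n := 2)
    (by rw [card_M22]; norm_num)
  by_contra hall
  push Not at hall
  haveI := Fintype.ofFinite E
  obtain ⟨b, hb⟩ := KnownChar.classInner_char_nat
    (Char.isCharacter_restrict (Char.isCharacter_of_irr χ.2) E) (Char.isCharacter_const_one (G := E))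
  rw [classInner, hE, Finset.sum_eq_single (1 : E)] at hb
  · rw [map_one, mul_one, OneMemClass.coe_one, hn] at hb
    refine h9 ⟨b, ?_⟩
    have h2 : (n : ℂ) = ((9 * b : ℕ) : ℂ) := by
      push_cast
      rw [← hb]
      norm_num
      ring
    exact_mod_cast h2
  · intro x _ hx
    have := hall x (fun h => hx (Subtype.ext h))
      (by rw [Subgroup.orderOf_coe]; exact (orderOf_dvd_natCard x).trans (by rw [hE]; norm_num))
    simp [this]
  · exact fun h => absurd (mem_univ _) h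

theorem no_defect_zero_M22 (χ : IrrCharacter Spor.M22) :
    (charDegree (χ : Spor.M22 → ℂ)).factorization 2 < (Nat.card Spor.M22).factorization 2 := by
  classical
  haveI := Fintype.ofFinite Spor.M22
  by_contra hcon
  obtain ⟨k, -, hkm, hle, hn, hvan⟩ := defect_zero_data χ (a := 7) (m := 3465)
    (by rw [card_M22]; norm_num) (not_lt.mp hcon) (by norm_num)
  obtain ⟨a5, o5, r5⟩ := elem_spec (by norm_num) mem_M22_iff elem5m22
  obtain ⟨a7, o7, r7⟩ := elem_spec (by norm_num) mem_M22_iff elem7m22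
  obtain ⟨a11, o11, r11⟩ := elem_spec (by norm_num) mem_M22_iff elem11m22
  have b5 := card_normalizer_le (by norm_num) mem_M22_iff a5 o5 r5 _ _ tw5m22
  have b7 := card_normalizer_le (by norm_num) mem_M22_iff a7 o7 r7 _ _ tw7m22
  have b11 := card_normalizer_le (by norm_num) mem_M22_iff a11 o11 r11 _ _ tw11m22
  have t5 := term_ge χ.2 hvan hn (by norm_num) (by norm_num) a5 o5 0 (by simp)
  have t7 := term_ge χ.2 hvan hn (by norm_num) (by norm_num) a7 o7 0 (by simp)
  have t11 := term_ge χ.2 hvan hn (by norm_num) (by norm_num) a11 o11 0 (by simp)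
  have main : ∀ s : Finset Spor.M22,
      (∀ x ∈ s, x ≠ 1 ∧ orderOf x ≠ 5 ∧ orderOf x ≠ 7 ∧ orderOf x ≠ 11) → _ := fun s hs =>
    SingleBlock.normSq_bound χ.2 hn
      ![Subgroup.zpowers a5, Subgroup.zpowers a7, Subgroup.zpowers a11]
      ![5, 7, 11] ![20, 21, 55]
      ![((((2 ^ 0) ^ 2 * (((2 ^ 7 * k) / 2 ^ 0) % 5 * (5 - ((2 ^ 7 * k) / 2 ^ 0) % 5)) : ℕ)) : ℝ),
        ((((2 ^ 0) ^ 2 * (((2 ^ 7 * k) / 2 ^ 0) % 7 * (7 - ((2 ^ 7 * k) / 2 ^ 0) % 7)) : ℕ)) : ℝ),
        ((((2 ^ 0) ^ 2 * (((2 ^ 7 * k) / 2 ^ 0) % 11 * (11 - ((2 ^ 7 * k) / 2 ^ 0) % 11)) : ℕ)) : ℝ)]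
      (by intro i; fin_cases i <;> norm_num)
      (by intro i j h; fin_cases i <;> fin_cases j <;> simp_all)
      (by
        intro i
        fin_cases i
        · exact (Nat.card_zpowers a5).trans o5
        · exact (Nat.card_zpowers a7).trans o7
        · exact (Nat.card_zpowers a11).trans o11)
      (by
        intro i
        fin_cases i
        · exact b5.trans (by decide)
        · exact b7.trans (by decide)
        · exact b11.trans (by decide))
      (by
        intro i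
        match i with
        | 0 => convert t5 <;> simp
        | 1 => convert t7 <;> simp
        | 2 => convert t11 <;> simp)
      s (fun x hx => ⟨(hs x hx).1, by intro i; fin_cases i <;> simp [(hs x hx).2]⟩)
  have hk6 : k < 6 := by rw [card_M22] at hle; nlinarith
  by_cases hk : k = 3
  · subst hk
    obtain ⟨x, hx1, hx9, hxne⟩ := exists_order_three_part χ hn (by norm_num)
    have hord : orderOf x ≠ 5 ∧ orderOf x ≠ 7 ∧ orderOf x ≠ 11 := by
      refine ⟨?_, ?_, ?_⟩ <;> intro h <;> rw [h] at hx9 <;> norm_num at hx9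
    have hb := main {x} (by intro y hy; rw [mem_singleton] at hy; subst hy; exact ⟨hx1, hord⟩)
    rw [Fin.sum_univ_three, Finset.sum_singleton, card_M22] at hb
    have hpos := Complex.normSq_pos.mpr hxne
    norm_num [Matrix.cons_val_two, Matrix.tail_cons, Matrix.head_cons] at hb
    linarith
  · have hb := main ∅ (by simp)
    rw [Fin.sum_univ_three, Finset.sum_empty, add_zero, card_M22] at hb
    interval_cases k <;> revert hkm hb hk <;>
      norm_num [Matrix.cons_val_two, Matrix.tail_cons, Matrix.head_cons]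

theorem sameBlock_M24 (M : Ideal AlgInt) (hM : IsPModular 2 M) (χ ψ : IrrCharacter M24) :
    SameBlock M (χ : M24 → ℂ) (ψ : M24 → ℂ) :=
  haveI := Fact.mk Nat.prime_two
  SingleBlock.sameBlock_of_local hM (local_of_core mem_M24_iff' core_le_M24)
    no_defect_zero_M24 χ ψ

theorem sameBlock_M22 (M : Ideal AlgInt) (hM : IsPModular 2 M) (χ ψ : IrrCharacter Spor.M22) :
    SameBlock M (χ : Spor.M22 → ℂ) (ψ : Spor.M22 → ℂ) :=
  haveI := Fact.mk Nat.prime_two
  SingleBlock.sameBlock_of_local hM (local_of_core mem_M22_iff core_le_M22)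
    no_defect_zero_M22 χ ψ

end Cfsg.Agent.M24
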