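import Cfsg.Agent.M24.BlockSearch
import Mathlib.GroupTheory.SpecificGroups.Cyclic

/-!
Orders of centralizers and normalizers of cyclic subgroups of prime order in subgroups of M24
cut out by sets of positions, from certified counts.
-/

set_option autoImplicit false

namespace Cfsg.Agent.M24

open Cfsg Cfsg.Agent.Golay

/-- The number of elements `x` of M24 stabilising `S` with `x * g = g ^ t * x`, by search. -/
def cntTw (S : List (List ℕ)) (tg t : ℕ) (rel : List (List (ℕ × ℕ × ℕ × ℕ))) : ℕ :=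
  searchN (fun k f => okC rel k f && okSets S (baseOf k f))
    (fun f => fullTw tg t (tblOf f) && fullSets S (tblOf f)) transTab 0 (act [])

/-- The exponent `t` has exactly `c` twisted solutions. -/
def twCheck (S : List (List ℕ)) (tg t c : ℕ) (rel : List (List (ℕ × ℕ × ℕ × ℕ))) : Bool :=
  relsOK tg t rel && Nat.beq (cntTw S tg t rel) c

/-- `tg` codes an element of prime order `q` stabilising `S`. -/
def elemCheck (S : List (List ℕ)) (tg q : ℕ) : Bool :=
  GoodTab tg && fullSets S (tblOf (papp tg)) && ((List.range 24).all fun i => Nat.beq (powPos tg q i) i) &&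
    ((List.range 24).any fun i => !Nat.beq (papp tg i) i)

theorem tableOf_eq {tg : ℕ} {g : Equiv.Perm GolayPt} (h : Rep tg g) :
    tableOf g = tblOf (papp tg) :=
  List.map_congr_left fun i hi => by rw [h, ptIdx_ptOf i (List.mem_range.mp hi)]

theorem tw_card {S : List (List ℕ)} {tg t c : ℕ} {rel : List (List (ℕ × ℕ × ℕ × ℕ))}
    {g : Equiv.Perm GolayPt} (hg : Rep tg g) (h : twCheck S tg t c rel = true) :
    Nat.card {x : Equiv.Perm GolayPt // x ∈ M24 ∧ (x * g = g ^ t * x ∧ x ∈ setStab S)} = c := by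
  rw [twCheck, Bool.and_eq_true, Nat.beq_eq] at h
  exact card_of_tests ((tests_tw hg t h.1).and (tests_sets S))
    (fun k f => by rw [okTw_baseOf h.1]) h.2

variable {S : List (List ℕ)} {H : Subgroup (Equiv.Perm GolayPt)}

theorem elem_spec {tg q : ℕ} (hq : q.Prime) (hH : ∀ x, x ∈ H ↔ x ∈ M24 ∧ x ∈ setStab S)
    (h : elemCheck S tg q = true) :
    ∃ g : H, orderOf g = q ∧ Rep tg (g : Equiv.Perm GolayPt) := by
  simp only [elemCheck, Bool.and_eq_true, List.all_eq_true, List.any_eq_true, List.mem_range,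
    Nat.beq_eq, Bool.not_eq_true'] at h
  obtain ⟨⟨⟨hgood, hS⟩, hpow⟩, i, hi, hne⟩ := h
  obtain ⟨g, hg, hrep⟩ := rep_of_good hgood
  have hgH : g ∈ H := (hH g).2 ⟨hg, (fullSets_iff S g).1 (by rwa [tableOf_eq hrep])⟩
  refine ⟨⟨g, hgH⟩, ?_, hrep⟩
  haveI := Fact.mk hq
  rw [Subgroup.orderOf_mk]
  refine orderOf_eq_prime (Equiv.ext fun p => ptIdx_injective ?_) fun h1 => ?_
  · rw [← hrep.powPos_eq, hpow _ (ptIdx_lt p)]
    rfl
  · have := hrep (ptOf i)
    rw [h1, Equiv.Perm.one_apply, ptIdx_ptOf i hi] at this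
    rw [← this, Nat.beq_refl] at hne
    exact Bool.noConfusion hne

theorem card_centralizer_le {tg c : ℕ} {rel : List (List (ℕ × ℕ × ℕ × ℕ))}
    (hH : ∀ x, x ∈ H ↔ x ∈ M24 ∧ x ∈ setStab S) (g : H) (hg : Rep tg (g : Equiv.Perm GolayPt))
    (h : twCheck S tg 1 c rel = true) : Nat.card (Subgroup.centralizer ({g} : Set H)) = c := by
  rw [← tw_card hg h]
  refine Nat.card_congr
    { toFun := fun x => ⟨x.1.1, ((hH _).1 x.1.2).1, ?_, ((hH _).1 x.1.2).2⟩
      invFun := fun y => ⟨⟨y.1, (hH _).2 ⟨y.2.1, y.2.2.2⟩⟩, ?_⟩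
      left_inv := fun x => rfl
      right_inv := fun y => rfl }
  · have := Subgroup.mem_centralizer_singleton_iff.1 x.2
    rw [pow_one]
    exact congrArg Subtype.val this
  · refine Subgroup.mem_centralizer_singleton_iff.2 (Subtype.ext ?_)
    show y.1 * (g : Equiv.Perm GolayPt) = g * y.1
    exact y.2.2.1.trans (by simp only [pow_one])

theorem card_normalizer_le {tg q : ℕ} (hq : q.Prime) (hH : ∀ x, x ∈ H ↔ x ∈ M24 ∧ x ∈ setStab S)
    (g : H) (hgq : orderOf g = q) (hg : Rep tg (g : Equiv.Perm GolayPt))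
    (cs : Fin (q - 1) → ℕ) (rels : Fin (q - 1) → List (List (ℕ × ℕ × ℕ × ℕ)))
    (h : ∀ t : Fin (q - 1), twCheck S tg (t + 1) (cs t) (rels t) = true) :
    Nat.card (Subgroup.normalizer (Subgroup.zpowers g : Set H)) ≤ ∑ t, cs t := by
  classical
  let T := Σ t : Fin (q - 1), {x : Equiv.Perm GolayPt //
    x ∈ M24 ∧ (x * g = (g : Equiv.Perm GolayPt) ^ ((t : ℕ) + 1) * x ∧ x ∈ setStab S)}
  have hT : Nat.card T = ∑ t, cs t := by
    rw [Nat.card_sigma]
    exact Finset.sum_congr rfl fun t _ => tw_card hg (h t)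
  rw [← hT]
  have key : ∀ x : Subgroup.normalizer (Subgroup.zpowers g : Set H), ∃ t : Fin (q - 1),
      (x.1 : Equiv.Perm GolayPt) * g = (g : Equiv.Perm GolayPt) ^ ((t : ℕ) + 1) * x.1 := by
    intro x
    have hm : x.1 * g * x.1⁻¹ ∈ Subgroup.zpowers g :=
      (Subgroup.mem_normalizer_iff.1 x.2 g).1 (Subgroup.mem_zpowers g)
    rw [mem_zpowers_iff_mem_range_orderOf, Finset.mem_image] at hm
    obtain ⟨s, hs, he⟩ := hm
    rw [Finset.mem_range, hgq] at hs
    have hs0 : s ≠ 0 := by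
      rintro rfl
      rw [pow_zero, eq_comm, mul_inv_eq_one] at he
      have hg1 : g = 1 := mul_left_cancel (a := x.1) (by rw [mul_one]; exact he)
      rw [hg1, orderOf_one] at hgq
      exact hq.one_lt.ne hgq
    refine ⟨⟨s - 1, by omega⟩, ?_⟩
    rw [Nat.sub_add_cancel (Nat.one_le_iff_ne_zero.2 hs0)]
    have h2 : x.1 * g = g ^ s * x.1 := by rw [he]; group
    exact_mod_cast congrArg Subtype.val h2
  choose t ht using key
  refine Nat.card_le_card_of_injective (fun x => (⟨t x, ⟨x.1.1, ((hH _).1 x.1.2).1, ht x,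
    ((hH _).1 x.1.2).2⟩⟩ : T)) fun a b hab => ?_
  have := congrArg (fun z : T => z.2.1) hab
  exact Subtype.ext (Subtype.ext this)

end Cfsg.Agent.M24
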